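/-
Systems of transvections: axioms, duality, first consequences.
-/
import Cfsg.Agent.MH.Tv3

set_option autoImplicit false
set_option linter.unusedSectionVars false

namespace CF.D5T

open Matrix CF.MaxSub

variable {ι : Type} [Fintype ι] [DecidableEq ι] {F : Type*} [Field F]

/-- Short root group. -/
def Sh (T : (ι → F) → (ι → F) → Prop) (v φ : ι → F) : Prop := ∀ c : F, T (c • v) φ → c = 0 ∨ c = 1

/-- Root group with three elements. -/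
def Th (T : (ι → F) → (ι → F) → Prop) (v φ : ι → F) : Prop :=
  ∀ c : F, T (c • v) φ → c = 0 ∨ c = 1 ∨ c = -1

/-- The root group is a subfield. -/
def RK (T : (ι → F) → (ι → F) → Prop) (K : Subfield F) (v φ : ι → F) : Prop :=
  ∀ c : F, c ∈ K ↔ T (c • v) φ

/-- An irreducible system of transvections: `T v φ` means that `1 + v φ` is in the group. -/
structure TS (T : (ι → F) → (ι → F) → Prop) : Prop where
  dot : ∀ {v φ}, T v φ → φ ⬝ᵥ v = 0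
  zero : ∀ φ, T 0 φ
  zero' : ∀ v, T v 0
  add : ∀ {v w φ}, T v φ → T w φ → T (v + w) φ
  add' : ∀ {v φ ψ}, T v φ → T v ψ → T v (φ + ψ)
  smul : ∀ {v φ} (c : F), T (c • v) φ ↔ T v (c • φ)
  neg : ∀ {v φ}, T v φ → T (-v) φ
  act : ∀ {v φ w ψ}, T v φ → T w ψ → T (v + (ψ ⬝ᵥ v) • w) (φ - (φ ⬝ᵥ w) • ψ)
  irr : ∀ W : Submodule F (ι → F), (∀ u χ, T u χ → ∀ x ∈ W, (χ ⬝ᵥ x) • u ∈ W) → W = ⊥ ∨ W = ⊤
  pair : ∀ {v φ w ψ}, T v φ → T w ψ → φ ⬝ᵥ w ≠ 0 → ψ ⬝ᵥ v ≠ 0 → Sh T v φ ∧ Sh T w ψ ∨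
    (3 : F) = 0 ∧ Th T v φ ∧ Th T w ψ ∧ (φ ⬝ᵥ w * ψ ⬝ᵥ v) ^ 2 = -1 ∨
      ∃ K, RK T K v φ ∧ RK T K w ψ ∧ φ ⬝ᵥ w * ψ ⬝ᵥ v ∈ K
  dh : (2 : F) = 0 → ∀ {v φ y ψ} {n : F}, T v φ → T y ψ → n ^ 2 * φ ⬝ᵥ y = ψ ⬝ᵥ v → ψ ⬝ᵥ v ≠ 0 →
    T (v + n • y) ((ψ ⬝ᵥ v)⁻¹ • (ψ + n • φ))

theorem exists_dot_ne {S : Set (ι → F)} (h : Submodule.span F S = ⊤) {φ : ι → F} (h0 : φ ≠ 0) :
    ∃ x ∈ S, φ ⬝ᵥ x ≠ 0 := by
  by_contra! e
  refine h0 (dotProduct_eq_zero φ fun x => ?_)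
  have hx := h.ge (Submodule.mem_top (x := x))
  induction hx using Submodule.span_induction <;> simp [*]

namespace TS

variable {T : (ι → F) → (ι → F) → Prop} (h : TS T) {u v w x y φ ψ χ η : ι → F}
include h

omit h in
theorem cg {v' φ' : ι → F} (a : T v φ) (e : v' = v) (e' : φ' = φ) : T v' φ' := e ▸ e' ▸ a

theorem neg' (a : T v φ) : T v (-φ) := by
  simpa using (h.smul (-1)).1 (by simpa using h.neg a)

theorem sub (a : T v φ) (b : T w φ) : T (v - w) φ := sub_eq_add_neg v w ▸ h.add a (h.neg b)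

theorem sub' (a : T v φ) (b : T v ψ) : T v (φ - ψ) := sub_eq_add_neg φ ψ ▸ h.add' a (h.neg' b)

theorem comm (a : T v φ) (b : T w ψ) (e : φ ⬝ᵥ w = 0) : T ((ψ ⬝ᵥ v) • w) φ := by
  refine cg (h.sub (cg (h.act a b) rfl ?_) a) ?_ rfl <;> simp [e]

theorem scale {c : F} (c0 : c ≠ 0) (a : T v φ) : T (c • v) (c⁻¹ • φ) := by
  rwa [h.smul, smul_smul, mul_inv_cancel₀ c0, one_smul]

theorem sh_dual : Sh (fun v φ => T φ v) φ v ↔ Sh T v φ := by simp only [Sh, h.smul]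

theorem th_dual : Th (fun v φ => T φ v) φ v ↔ Th T v φ := by simp only [Th, h.smul]

theorem rk_dual {K : Subfield F} : RK (fun v φ => T φ v) K φ v ↔ RK T K v φ := by
  simp only [RK, h.smul]

theorem dual : TS fun v φ => T φ v where
  dot a := (dotProduct_comm ..).trans (h.dot a)
  zero := h.zero'
  zero' := h.zero
  add := h.add'
  add' := h.add
  smul c := (h.smul c).symm
  neg := h.neg'
  act {v φ w ψ} a b := cg (h.act a (h.neg b)) (by simp [dotProduct_comm φ, sub_eq_add_neg])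
    (by simp [dotProduct_comm ψ])
  irr W hW := by
    let A : Submodule F (ι → F) :=
      { carrier := {x | ∀ ξ ∈ W, ξ ⬝ᵥ x = 0}
        add_mem' := fun a b ξ k => by simp [a ξ k, b ξ k]
        zero_mem' := by simp
        smul_mem' := fun c x a ξ k => by simp [a ξ k] }
    rcases h.irr A (fun u χ a x hx ξ k => by
      simpa [dotProduct_comm u, mul_comm] using hx _ (hW _ _ a ξ k)) with e | e
    · refine .inr (eq_top_iff.2 fun x _ => by_contra fun k => ?_)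
      obtain ⟨φ, h1, h2⟩ := exists_dot k
      have : φ ∈ A := fun ξ k => (dotProduct_comm ..).trans (h2 ξ k)
      simp [(Submodule.eq_bot_iff _).1 e φ this] at h1
    · exact .inl ((Submodule.eq_bot_iff _).2 fun ξ k => dotProduct_eq_zero ξ fun x =>
        (e.ge (Submodule.mem_top (x := x))) ξ k)
  pair {v φ w ψ} a b e e' := by
    have := h.pair a b (by rwa [dotProduct_comm]) (by rwa [dotProduct_comm])
    rwa [← h.sh_dual, ← h.sh_dual, ← h.th_dual, ← h.th_dual, dotProduct_comm v, dotProduct_comm w,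
      mul_comm, ← funext fun K => propext (and_congr h.rk_dual (and_congr_left' h.rk_dual))] at this
  dh h2 {v φ y ψ n} a b e e' := by
    rw [h.smul, dotProduct_comm]
    exact h.dh h2 b a (by rwa [dotProduct_comm, dotProduct_comm v]) (by rwa [dotProduct_comm])

theorem span_top {S : Set (ι → F)} (h0 : ∃ x ∈ S, x ≠ 0)
    (k : ∀ x ∈ S, ∀ u χ, T u χ → χ ⬝ᵥ x ≠ 0 → u ∈ Submodule.span F S) : Submodule.span F S = ⊤ := by
  refine (h.irr _ fun u χ a x hx => ?_).resolve_left fun e => ?_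
  · by_cases e : ∃ x ∈ S, χ ⬝ᵥ x ≠ 0
    · obtain ⟨x, hx, e⟩ := e
      exact Submodule.smul_mem _ _ (k x hx u χ a e)
    · push Not at e
      have : χ ⬝ᵥ x = 0 := by induction hx using Submodule.span_induction <;> simp [*]
      simp [this]
  · obtain ⟨x, hx, x0⟩ := h0
    exact x0 ((Submodule.eq_bot_iff _).1 e x (Submodule.subset_span hx))

omit h in
theorem mem_of_add {W : Submodule F (ι → F)} {c : F} (c0 : c ≠ 0) (a : x ∈ W) (b : x + c • u ∈ W) :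
    u ∈ W := (W.smul_mem_iff c0).1 ((W.add_mem_iff_right a).1 b)

theorem conn {Q : (ι → F) → (ι → F) → Prop} (a : T v φ) (v0 : v ≠ 0) (q : Q v φ) (φ0 : φ ≠ 0)
    (k : ∀ {v φ u χ}, T v φ → T u χ → φ ≠ 0 → u ≠ 0 → χ ⬝ᵥ v ≠ 0 → Q v φ → Q u χ) (b : T u χ) (u0 : u ≠ 0)
    (χ0 : χ ≠ 0) : Q u χ := by
  obtain ⟨x, ⟨ξ, c, d, ξ0⟩, e⟩ := exists_dot_ne (h.span_top (S := {x | ∃ ξ, T x ξ ∧ Q x ξ ∧ ξ ≠ 0})
    ⟨v, ⟨φ, a, q, φ0⟩, v0⟩ fun x ⟨ξ, c, d, ξ0⟩ u χ b e => by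
      by_cases u0 : u = 0
      · simp [u0]
      · exact Submodule.subset_span ⟨χ, b, k c b ξ0 u0 e d, fun h => e (by simp [h])⟩) χ0
  exact k c b ξ0 u0 e d

theorem opp (a : T w φ) (w0 : w ≠ 0) (φ0 : φ ≠ 0) : ∃ u χ, T u χ ∧ φ ⬝ᵥ u ≠ 0 ∧ χ ⬝ᵥ w ≠ 0 := by
  by_contra! k
  obtain ⟨x, hx, e⟩ := exists_dot_ne (h.span_top
    (S := {x | T x φ ∧ ∀ u χ, T u χ → φ ⬝ᵥ u ≠ 0 → χ ⬝ᵥ x = 0}) ⟨w, ⟨a, k⟩, w0⟩ fun x hx u χ b e => by
      have e1 : φ ⬝ᵥ u = 0 := by_contra fun e1 => e (hx.2 u χ b e1)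
      refine mem_of_add e (Submodule.subset_span hx) (Submodule.subset_span
        ⟨by simpa [e1] using h.act hx.1 b, fun u' χ' b' e2 => ?_⟩)
      simpa [mul_comm] using hx.2 _ _ (h.act b' (h.neg b)) (by simpa [e1] using e2)) φ0
  exact e (h.dot hx.1)

theorem sh_of (a : T v φ) (b : T w ψ) (e : φ ⬝ᵥ w ≠ 0) (e' : ψ ⬝ᵥ v ≠ 0) (s : Sh T w ψ) : Sh T v φ := by
  rcases h.pair a b e e' with k | ⟨h3, -⟩ | ⟨K, k, k', -⟩
  · exact k.1
  · rcases s (-1) (by simpa using h.neg b) with k | k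
    · simp at k
    · exact absurd (by linear_combination h3 + k) (one_ne_zero (α := F))
  · exact fun c hc => s c ((k' c).1 ((k c).2 hc))

theorem two (a : T v φ) (s : Sh T v φ) : (2 : F) = 0 := by
  rcases s (-1) (by simpa using h.neg a) with k | k
  · simp at k
  · linear_combination -k

theorem mu4 (h3 : (3 : F) = 0) (a : T v φ) (b : T w ψ) (t : Th T w ψ) :
    (φ ⬝ᵥ w * ψ ⬝ᵥ v) ^ 5 = φ ⬝ᵥ w * ψ ⬝ᵥ v := by
  by_cases e : φ ⬝ᵥ w * ψ ⬝ᵥ v = 0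
  · simp [e]
  rcases h.pair a b (left_ne_zero_of_mul e) (right_ne_zero_of_mul e) with k | ⟨-, -, -, k⟩ | ⟨K, -, k, k'⟩
  · exact absurd (by linear_combination h3 - h.two a k.1) (one_ne_zero (α := F))
  · grind
  · rcases t _ ((k _).1 k') with k | k | k <;> rw [k] <;> norm_num

theorem ker (a : T w φ) (b : T u χ) (e : φ ⬝ᵥ u ≠ 0) (e' : χ ⬝ᵥ w ≠ 0) (s : ¬ Sh T w φ) (c : T v φ) :
    ∃ k : F, T (k • w) φ ∧ χ ⬝ᵥ v = k * χ ⬝ᵥ w := by
  by_cases e1 : χ ⬝ᵥ v = 0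
  · exact ⟨0, by simpa using h.zero φ, by simp [e1]⟩
  by_cases t : (3 : F) = 0 ∧ Th T u χ
  · have k1 := h.mu4 t.1 a b t.2
    have k2 := h.mu4 t.1 c b t.2
    have k3 := h.mu4 t.1 (h.add a c) b t.2
    have k4 := h.mu4 t.1 (h.sub a c) b t.2
    have h3 := t.1
    rw [dotProduct_add] at k3
    rw [dotProduct_sub] at k4
    have : χ ⬝ᵥ v = χ ⬝ᵥ w ∨ χ ⬝ᵥ v = -(χ ⬝ᵥ w) := by
      generalize χ ⬝ᵥ v = b at *
      generalize χ ⬝ᵥ w = a at *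
      generalize φ ⬝ᵥ u = x at *
      by_contra! n
      have n1 : x * (a + b) ≠ 0 := mul_ne_zero e fun k => n.2 (by linear_combination k)
      have n2 : x * (a - b) ≠ 0 := mul_ne_zero e fun k => n.1 (by linear_combination -k)
      have l : ∀ z : F, z ≠ 0 → z ^ 5 = z → z ^ 4 = 1 := fun z z0 k =>
        mul_left_cancel₀ z0 (by linear_combination k)
      exact one_ne_zero (by
        linear_combination (1 + 4 * (x * a) ^ 2 * (x * b) ^ 2) * h3 - l _ n1 k3 - l _ n2 k4 +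
          2 * l _ (mul_ne_zero e e') k1 + 2 * l _ (mul_ne_zero e e1) k2 : (1 : F) = 0)
    rcases this with k | k
    exacts [⟨1, by simpa, by simpa⟩, ⟨-1, by simpa using h.neg a, by simpa⟩]
  have k : ∀ {w}, T w φ → χ ⬝ᵥ w ≠ 0 → ∃ K, RK T K w φ ∧ RK T K u χ ∧ φ ⬝ᵥ u * χ ⬝ᵥ w ∈ K :=
    fun a' e1 => ((h.pair a' b e e1).resolve_left fun k => s (h.sh_of a b e e' k.2)).resolve_left
      fun k => t ⟨k.1, k.2.2.1⟩
  obtain ⟨K, k1, k2, k3⟩ := k a e'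
  obtain ⟨K', -, k4, k5⟩ := k c e1
  refine ⟨χ ⬝ᵥ v / χ ⬝ᵥ w, (k1 _).1 ?_, by field_simp⟩
  convert div_mem ((k2 _).2 ((k4 _).1 k5)) k3 using 1
  field_simp

end TS

end CF.D5T
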