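/-
Systems of transvections: a triangle generates everything.
-/
import Cfsg.Agent.D5.T1

set_option autoImplicit false
set_option linter.unusedSectionVars false

namespace CF.D5T

open Matrix CF.MaxSub

variable {ι : Type} [Fintype ι] [DecidableEq ι] {F : Type*} [Field F]
  {T : (ι → F) → (ι → F) → Prop} {u v w x y φ ψ χ η g : ι → F}

theorem TS.rt [Finite F] (h : TS T) (h2 : (2 : F) = 0) (a : T v φ) (a' : T v η) (b : T y ψ)
    (e : ψ ⬝ᵥ v ≠ 0) (e1 : φ ⬝ᵥ y ≠ 0) (e2 : η ⬝ᵥ y ≠ 0) : ∃ l : F, l ≠ 0 ∧ l ^ 2 * φ ⬝ᵥ y = η ⬝ᵥ y ∧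
      (∀ κ, T v κ → T v (l • κ + (κ ⬝ᵥ y / φ ⬝ᵥ y) • (l • φ + η))) ∧
      ∀ x, T x φ → ∃ α β : F, T (l⁻¹ • (x + α • v + β • y)) η := by
  obtain ⟨n, -, hn⟩ := MH.exists_sq h2 ⊤ (x := ψ ⬝ᵥ v / φ ⬝ᵥ y) trivial
  obtain ⟨m, -, hm⟩ := MH.exists_sq h2 ⊤ (x := ψ ⬝ᵥ v / η ⬝ᵥ y) trivial
  rw [eq_div_iff e1] at hn
  rw [eq_div_iff e2] at hm
  have n0 : n ≠ 0 := fun k => e (by simpa [k] using hn.symm)
  have m0 : m ≠ 0 := fun k => e (by simpa [k] using hm.symm)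
  have r := h.dh h2 a b hn e
  have r' := h.dh h2 a' b hm e
  have d1 := h.dot a
  have d2 := h.dot a'
  have d3 := h.dot b
  have l2 : (n / m) ^ 2 * φ ⬝ᵥ y = η ⬝ᵥ y := by field_simp; linear_combination hn - hm
  refine ⟨n / m, div_ne_zero n0 m0, l2, fun κ k => ?_, fun x k => ?_⟩
  · have d4 := h.dot k
    refine TS.cg ((h.smul (n / m)).1 (TS.cg (h.act (h.act k r) r') ?_ rfl)) rfl ?_ <;>
    · simp only [dotProduct_add, add_dotProduct, dotProduct_smul, smul_dotProduct, dotProduct_sub,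
        sub_dotProduct, smul_eq_mul, d1, d2, d3, d4, ← l2, ← hn]
      match_scalars <;> field_simp <;> grind
  · have d4 := h.dot k
    let ξ := (ψ ⬝ᵥ v)⁻¹ • (ψ + n • φ)
    let ξ' := (ψ ⬝ᵥ v)⁻¹ • (ψ + m • η)
    let x' := x + (ξ ⬝ᵥ x) • (v + n • y)
    refine ⟨ξ ⬝ᵥ x + ξ' ⬝ᵥ x', ξ ⬝ᵥ x * n + ξ' ⬝ᵥ x' * m, (h.smul _).2 (TS.cg (h.act (h.act k r) r')
      (by simp only [x', ξ, ξ']; module) ?_)⟩
    simp only [dotProduct_add, add_dotProduct, dotProduct_smul, smul_dotProduct, dotProduct_sub,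
      sub_dotProduct, smul_eq_mul, d1, d2, d3, d4, ← l2, ← hn]
    match_scalars <;> field_simp <;> grind

theorem TS.root [Finite F] (h : TS T) (h2 : (2 : F) = 0) (a : T v φ) (a' : T v η) (b : T y ψ)
    (e : ψ ⬝ᵥ v ≠ 0) (e1 : φ ⬝ᵥ y ≠ 0) (e2 : η ⬝ᵥ y ≠ 0) (e3 : η ⬝ᵥ y ≠ φ ⬝ᵥ y) (x1 : φ ⬝ᵥ x = 0)
    (x2 : η ⬝ᵥ x = 1) (s : ∀ κ, T v κ → κ ⬝ᵥ x = 0 ∨ κ ⬝ᵥ x = 1) :
    (η ⬝ᵥ y) ^ 2 + η ⬝ᵥ y * φ ⬝ᵥ y + (φ ⬝ᵥ y) ^ 2 = 0 := by
  obtain ⟨l, l0, l1, l2, -⟩ := h.rt h2 a a' b e e1 e2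
  have l3 := s _ (l2 _ a')
  rw [← l1] at e3 l3 ⊢
  simp only [add_dotProduct, smul_dotProduct, x1, x2, smul_eq_mul, mul_div_cancel_right₀ _ e1] at l3
  rcases l3 with l3 | l3
  · exact absurd (mul_left_cancel₀ l0 (by
      linear_combination (φ ⬝ᵥ y * (l - 1)) * l3)) e3
  · linear_combination (φ ⬝ᵥ y) ^ 2 * (l ^ 2 + l + 1) * l3 + (φ ⬝ᵥ y) ^ 2 * (1 - l ^ 3) * h2

theorem two_roots {a b c : F} (h2 : (2 : F) = 0) (h : a ^ 2 + a * c + c ^ 2 = 0)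
    (h' : b ^ 2 + b * c + c ^ 2 = 0) : a + b = 0 ∨ a + b + c = 0 :=
  mul_eq_zero.1 (by linear_combination h + h' + (a * b - c ^ 2) * h2)

/-- The system is realisable over no proper subfield. -/
def GM (T : (ι → F) → (ι → F) → Prop) : Prop := ∀ (K : Subfield F) (A B : Set (ι → F)),
  Submodule.span F A = ⊤ → Submodule.span F B = ⊤ → (∀ a ∈ A, ∀ β ∈ B, β ⬝ᵥ a ∈ K) →
    (∀ w ψ, T w ψ → ∀ a ∈ A, ∀ β ∈ B, β ⬝ᵥ w * ψ ⬝ᵥ a ∈ K) → K = ⊤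

/-- A triangle of root groups. -/
structure Fr (T : (ι → F) → (ι → F) → Prop) (K : Subfield F) (e f : Fin 3 → ι → F) : Prop where
  ts : TS T
  d1 : ∀ i, f i ⬝ᵥ e i = 1
  rk : ∀ {i j}, i ≠ j → RK T K (e i) (f j)

/-- Rational vectors. -/
def Vk (T : (ι → F) → (ι → F) → Prop) (K : Subfield F) (e f : Fin 3 → ι → F) (v : ι → F) : Prop :=
  ∀ j, f j ⬝ᵥ v ∈ K ∧ T (v - (f j ⬝ᵥ v) • e j) (f j)

/-- Rational forms. -/
abbrev Wk (T : (ι → F) → (ι → F) → Prop) (K : Subfield F) (e f : Fin 3 → ι → F) (φ : ι → F) : Prop :=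
  Vk (fun v φ => T φ v) K f e φ

theorem third (i j : Fin 3) : ∃ k, k ≠ i ∧ k ≠ j := by revert i j; decide

namespace Fr

variable {K : Subfield F} {e f : Fin 3 → ι → F} (h : Fr T K e f) {i j : Fin 3}
include h

theorem dual : Fr (fun v φ => T φ v) K f e :=
  ⟨h.ts.dual, fun i => (dotProduct_comm ..).trans (h.d1 i), fun k => h.ts.rk_dual.2 (h.rk k.symm)⟩

theorem tv (k : i ≠ j) : T (e i) (f j) := by simpa using (h.rk k 1).1 (one_mem K)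

theorem d0 (k : i ≠ j) : f j ⬝ᵥ e i = 0 := h.ts.dot (h.tv k)

theorem swap (a : T v (f j)) (k : j ≠ i) (e0 : f i ⬝ᵥ v = 0) {c : F} (hc : c ∈ K) : T (c • v) (f i) := by
  simpa [h.d1] using h.ts.comm ((h.rk k c).1 hc) a e0

theorem of_tv (a : T v (f j)) : Vk T K e f v := fun k => by
  by_cases e0 : k = j
  · subst e0; simpa [h.ts.dot a, zero_mem] using a
  obtain ⟨i, h1, h2⟩ := third j k
  have := (h.rk h1 _).2 (h.ts.comm a (h.tv h2) (h.d0 h1))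
  exact ⟨this, by simpa using h.swap (h.ts.sub a ((h.rk e0 _).1 this)) (Ne.symm e0) (by simp [h.d1]) (one_mem K)⟩

omit h in
theorem _root_.CF.D5T.Vk.tv (a : Vk T K e f v) (e0 : f j ⬝ᵥ v = 0) : T v (f j) := by simpa [e0] using (a j).2

theorem add (a : Vk T K e f v) (b : Vk T K e f w) : Vk T K e f (v + w) := fun j =>
  ⟨by simpa using add_mem (a j).1 (b j).1, TS.cg (h.ts.add (a j).2 (b j).2) (by
    rw [dotProduct_add]; module) rfl⟩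

theorem smul (a : Vk T K e f v) {c : F} (hc : c ∈ K) : Vk T K e f (c • v) := fun j => by
  obtain ⟨k, h1, -⟩ := third j j
  have b := (h.of_tv (a j).2 k).1
  have b1 := h.ts.sub (a j).2 ((h.rk h1 _).1 b)
  have b2 := h.swap (h.swap b1 h1.symm (by simp [h.d1]) (one_mem K)) h1 (by simp [h.d1, h.d0 h1]) hc
  exact ⟨by simpa using mul_mem hc (a j).1, TS.cg (h.ts.add b2 ((h.rk h1 _).1 (mul_mem hc b))) (by
    rw [dotProduct_smul]; module) rfl⟩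

theorem base (i : Fin 3) : Vk T K e f (e i) := let ⟨_, k, _⟩ := third i i; h.of_tv (h.tv k.symm)

theorem sub (a : Vk T K e f v) (b : Vk T K e f w) {c : F} (hc : c ∈ K) : Vk T K e f (v - c • w) := by
  simpa [sub_eq_add_neg] using h.add a (h.smul b (neg_mem hc))

theorem pair (a : Vk T K e f v) (b : Wk T K e f φ) : φ ⬝ᵥ v ∈ K := by
  have k := (h.rk (i := 1) (j := 0) (by decide) _).2 (h.ts.comm (a 0).2 (b 1).2 (h.d0 (by decide)))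
  convert add_mem (add_mem k (mul_mem (a 1).1 (b 1).1)) (mul_mem (a 0).1 (b 0).1) using 1
  simp [h.d0 (i := 0) (j := 1) (by decide), dotProduct_comm (e _) φ]
  ring

theorem of_ax (b : Wk T K e f g) (e0 : g ⬝ᵥ e i ≠ 0) (a : T v g) : Vk T K e f v := by
  have k := (b i).1
  rw [dotProduct_comm] at k
  have b1 := h.dual.smul (h.dual.sub b (h.dual.base i) k) (inv_mem k)
  have b2 : T (e i) _ := b1.tv (by simp [dotProduct_comm (e i), h.d1])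
  have b3 := h.smul (h.of_tv ((h.ts.smul (g ⬝ᵥ e i)).2 (TS.cg (h.ts.act a b2) rfl (by
    rw [smul_smul, mul_inv_cancel₀ e0]; module)))) (inv_mem k)
  rw [smul_smul, inv_mul_cancel₀ e0, one_smul] at b3
  simpa [h.ts.dot b2] using h.sub b3 (h.base i) (h.pair b3 b1)

theorem rat1 [Finite F] (a : T w ψ) (e0 : ψ ⬝ᵥ e i ≠ 0) : ∃ c : F, c ≠ 0 ∧ Vk T K e f (c • w) := by
  by_contra! n
  have N1 : ∀ {u g j}, T u g → Wk T K e f g → g ⬝ᵥ e j ≠ 0 → ψ ⬝ᵥ u ≠ 0 → g ⬝ᵥ w ≠ 0 :=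
    fun b b1 e1 e2 e3 => n _ e2 (h.of_ax b1 e1 (h.ts.comm b a e3))
  have N2 : ∀ {u g j}, T u g → Vk T K e f u → f j ⬝ᵥ u ≠ 0 → g ⬝ᵥ w ≠ 0 → ψ ⬝ᵥ u ≠ 0 :=
    fun {u g j} b b1 e1 e2 e3 => n _ (inv_ne_zero e2) (h.of_ax (i := i) (h.dual.of_ax b1 (by rwa [dotProduct_comm])
      ((h.ts.smul _).1 (h.ts.comm a b e3))) (by simp [e0, e2]) (by simpa using h.ts.scale (inv_ne_zero e2) a))
  have N3 : ∀ {i j}, i ≠ j → ψ ⬝ᵥ e i ≠ 0 → f j ⬝ᵥ w ≠ 0 := fun {i j} k =>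
    N1 (j := j) (h.tv k) (h.dual.base _) (by simp [h.d1])
  have N4 : ∀ {i j k c}, i ≠ j → i ≠ k → j ≠ k → c ∈ K → ψ ⬝ᵥ e i ≠ 0 → f k ⬝ᵥ w ≠ c * f j ⬝ᵥ w :=
    fun {i j k c} h1 h2 h3 hc e0 e1 => by
      have b := h.ts.sub' (h.tv h2) ((h.ts.smul c).1 ((h.rk h1 c).1 hc))
      exact N1 (j := k) b (h.dual.of_tv b) (by simp [h.d1, h.d0 h3.symm]) e0 (by simp [e1])
  obtain ⟨j, h1, -⟩ := third i i
  obtain ⟨k, h2, h3⟩ := third i j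
  by_cases s : ∀ c ∈ K, c = 0 ∨ c = 1
  swap
  · obtain ⟨c, c1, c2⟩ := h.ts.dual.ker (w := f j) (φ := e i) (u := ψ) (χ := w) (h.tv h1.symm) a
      (by rwa [dotProduct_comm]) (by rw [dotProduct_comm]; exact N3 h1.symm e0)
      (fun k => s fun c hc => h.ts.sh_dual.1 k c ((h.rk h1.symm c).1 hc)) (h.tv h2.symm)
    exact N4 h1.symm h2.symm h3.symm ((h.rk h1.symm c).2 ((h.ts.smul c).2 c1)) e0 (by
      simpa [dotProduct_comm w] using c2)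
  have t : (2 : F) = 0 := h.ts.two (h.tv h1) fun c hc => s c ((h.rk h1 c).2 hc)
  have N5 : ∀ {i j}, i ≠ j → f j ⬝ᵥ w ≠ 0 → ψ ⬝ᵥ e i ≠ 0 := fun {i j} k =>
    N2 (j := i) (h.tv k) (h.base _) (by simp [h.d1])
  have R : ∀ {i j k}, i ≠ j → i ≠ k → j ≠ k → ψ ⬝ᵥ e i ≠ 0 →
      (f k ⬝ᵥ w) ^ 2 + f k ⬝ᵥ w * f j ⬝ᵥ w + (f j ⬝ᵥ w) ^ 2 = 0 := fun {i j k} h1 h2 h3 e0 => by
    simpa using h.ts.root t (h.tv h1) (h.tv h2) a e0 (N3 h1 e0) (N3 h2 e0) (by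
      simpa using N4 h1 h2 h3 (one_mem K) e0) (h.d0 h3.symm) (h.d1 k) fun κ b => s _ (by
        simpa [dotProduct_comm κ] using (h.dual.of_tv b k).1)
  have ek := N5 h3 (N3 h1.symm e0)
  have r1 := R h1.symm h2.symm h3.symm e0
  have r2 := R h3 h2 h1 ek
  have r3 := N4 h1 h3.symm h2.symm (one_mem K) (N5 h3.symm (N3 h2.symm e0))
  have b := h.ts.act (h.ts.add' (h.tv h1.symm) (h.tv h2.symm)) (h.tv h1)
  have b' := h.ts.add (h.tv h2.symm) (h.tv h3.symm)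
  simp only [h.d1, h.d0 h3.symm, add_dotProduct, one_smul, add_zero] at b
  have r4 := N1 (j := k) b (by
    simpa using h.dual.sub (h.dual.add (h.dual.base j) (h.dual.base k)) (h.dual.base i) (one_mem K))
    (by simp [h.d1, h.d0 h3, h.d0 h2]) (N2 (j := i) b' (h.of_tv b') (by simp [h.d1, h.d0 h1]) (N3 h2.symm e0))
  simp only [add_dotProduct, sub_dotProduct] at r4
  rcases two_roots t r1 r2 with r | r
  · exact r3 (by linear_combination r - f i ⬝ᵥ w * t)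
  · exact r4 (by linear_combination r - f i ⬝ᵥ w * t)

theorem mv (a : T w ψ) (e0 : ∀ i, ψ ⬝ᵥ e i = 0) (b : Vk T K e f x) (e1 : ψ ⬝ᵥ x ≠ 0) :
    ∃ x, T x (f 0) ∧ T (w + (f 0 ⬝ᵥ w) • x) (ψ - (ψ ⬝ᵥ x) • f 0) ∧ (ψ - (ψ ⬝ᵥ x) • f 0) ⬝ᵥ e 0 ≠ 0 :=
  ⟨_, (b 0).2, h.ts.act a (b 0).2, by simpa [e0, h.d1]⟩

theorem span [Finite F] : Submodule.span F {v | Vk T K e f v} = ⊤ :=
  h.ts.span_top ⟨e 0, h.base 0, fun k => by simpa [k] using h.d1 0⟩ fun x hx w ψ a e1 => by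
    have k : ∀ {w ψ i}, T w ψ → ψ ⬝ᵥ e i ≠ 0 → w ∈ Submodule.span F {v | Vk T K e f v} := fun a e0 =>
      let ⟨c, c0, hc⟩ := h.rat1 a e0; (Submodule.smul_mem_iff _ c0).1 (Submodule.subset_span hc)
    by_cases e0 : ∀ i, ψ ⬝ᵥ e i = 0
    · obtain ⟨x, b, b1, b2⟩ := h.mv a e0 hx e1
      exact (Submodule.add_mem_iff_left _ (Submodule.smul_mem _ _ (Submodule.subset_span (h.of_tv b)))).1
        (k b1 b2)
    · exact let ⟨i, e0⟩ := not_forall.1 e0; k a e0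

theorem rat2 [Finite F] (a : T w ψ) (b : Vk T K e f w) (w0 : w ≠ 0) : Wk T K e f ψ := by
  by_cases e0 : ∀ j, f j ⬝ᵥ w = 0
  swap
  · exact let ⟨j, e0⟩ := not_forall.1 e0; h.dual.of_ax (i := j) b (by rwa [dotProduct_comm]) a
  obtain ⟨d, hd, e1⟩ := exists_dot_ne h.dual.span w0
  have c : T (e 0) _ := (hd 0).2
  have c1 := h.dual.of_tv c
  have c2 := h.dual.of_ax (i := 0) (h.add b (h.smul (h.base 0) (h.pair b c1))) (by
    simpa [dotProduct_comm _ (f 0), e0, h.d1, dotProduct_comm d] using e1) (h.ts.act a c)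
  have c3 := (c2 0).1
  rw [dotProduct_comm, sub_dotProduct, smul_dotProduct, h.ts.dot c, smul_zero, sub_zero] at c3
  simpa using h.dual.add c2 (h.dual.smul c1 c3)

theorem rat3 [Finite F] (a : T w ψ) (b : Vk T K e f x) (c : Wk T K e f g) : g ⬝ᵥ w * ψ ⬝ᵥ x ∈ K := by
  have k : ∀ {w ψ i}, T w ψ → ψ ⬝ᵥ e i ≠ 0 → ∀ {x g}, Vk T K e f x → Wk T K e f g →
      g ⬝ᵥ w * ψ ⬝ᵥ x ∈ K := fun {w ψ i} a e0 x g b c => by
    by_cases w0 : w = 0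
    · simp [w0]
    obtain ⟨d, d0, hd⟩ := h.rat1 a e0
    convert mul_mem (h.pair hd c) (h.pair b (h.rat2 (h.ts.scale d0 a) hd (smul_ne_zero d0 w0))) using 1
    simp; field_simp
  by_cases e1 : ψ ⬝ᵥ x = 0
  · simp [e1]
  by_cases e0 : ∀ i, ψ ⬝ᵥ e i = 0
  swap
  · exact let ⟨i, e0⟩ := not_forall.1 e0; k a e0 b c
  obtain ⟨y, b1, b2, b3⟩ := h.mv a e0 b e1
  have k1 := k b2 b3 b c
  have k2 := k b2 b3 (h.base 0) c
  have k3 := k b2 b3 b (h.dual.base 0)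
  have k4 := k b2 b3 (h.base 0) (h.dual.base 0)
  have k5 := h.pair (h.of_tv b1) c
  have k6 := (b 0).1
  convert sub_mem (sub_mem k1 (mul_mem k2 k6)) (mul_mem k5 (sub_mem k3 (mul_mem k4 k6))) using 1
  simp [e0, h.d1, h.ts.dot b1]
  ring

theorem all [Finite F] (gm : GM T) (e0 : φ ⬝ᵥ v = 0) : T v φ := by
  obtain rfl := gm K _ _ h.span h.dual.span (fun _ a _ b => h.pair a b) fun _ _ a _ b _ c => h.rat3 a b c
  have k : ∀ {T : (ι → F) → (ι → F) → Prop} {e f}, Fr T ⊤ e f → ∀ v, Vk T ⊤ e f v := fun h v => by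
    have := h.span.ge (Submodule.mem_top (x := v))
    induction this using Submodule.span_induction with
    | mem _ a => exact a
    | zero => simpa using h.smul (h.base 0) (zero_mem _)
    | add _ _ _ _ a b => exact h.add a b
    | smul _ _ _ a => exact h.smul a trivial
  have k' : ∀ {T : (ι → F) → (ι → F) → Prop} {e f v φ}, Fr T ⊤ e f → φ ⬝ᵥ v = 0 → φ ⬝ᵥ e 0 ≠ 0 → T v φ :=
    fun {T e f v φ} h e0 e1 => by
      let g := (φ ⬝ᵥ e 0)⁻¹ • φ - f 0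
      have b : T (e 0) g := (k h.dual g).tv (by simp [g, dotProduct_comm (e 0), h.d1, e1])
      have c := (k h ((φ ⬝ᵥ e 0) • (v + (g ⬝ᵥ v) • e 0))).tv (j := 0) (by simp [g, h.d1, e0])
      refine TS.cg (h.ts.act ((h.ts.smul _).1 c) (h.ts.neg b)) ?_ ?_ <;> simp [h.ts.dot b, h.d1]
      simp [g, smul_sub, smul_smul, e1]
  by_cases e1 : φ ⬝ᵥ e 0 = 0
  · by_cases e2 : f 0 ⬝ᵥ v = 0
    · simpa [h.d1] using h.ts.comm ((k h.dual φ).tv (j := 0) (by rwa [dotProduct_comm])) ((k h v).tv e2) e0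
    · exact k' (v := φ) (φ := v) h.dual (by rwa [dotProduct_comm]) (by rwa [dotProduct_comm])
  · exact k' h e0 e1

end Fr

end CF.D5T
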