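/-
Systems of transvections: the linear case.
-/
import Cfsg.Agent.D5.T2

set_option autoImplicit false
set_option linter.unusedSectionVars false

namespace CF.D5T

open Matrix CF.MaxSub

variable {ι : Type} [Fintype ι] [DecidableEq ι] {F : Type*} [Field F]
  {T : (ι → F) → (ι → F) → Prop} {u v w x y z φ ψ χ η κ : ι → F}

/-- A triangle. -/
def Tri (T : (ι → F) → (ι → F) → Prop) : Prop := ∃ a α b β c γ, T a α ∧ T b β ∧ T c γ ∧ α ⬝ᵥ b = 0 ∧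
  α ⬝ᵥ c ≠ 0 ∧ β ⬝ᵥ c = 0 ∧ β ⬝ᵥ a ≠ 0 ∧ γ ⬝ᵥ a = 0 ∧ γ ⬝ᵥ b ≠ 0

/-- An asymmetric flag. -/
def AD (T : (ι → F) → (ι → F) → Prop) (w φ : ι → F) : Prop := ∃ v ψ, T v φ ∧ T w ψ ∧ ψ ⬝ᵥ v ≠ 0

/-- At most four centres on an axis. -/
def Four (T : (ι → F) → (ι → F) → Prop) (φ : ι → F) : Prop :=
  ∃ x y, ∀ z, T z φ → z = 0 ∨ z = x ∨ z = y ∨ z = x + y

theorem Tri.dual (t : Tri fun v φ => T φ v) : Tri T := by
  obtain ⟨a, α, b, β, c, γ, h1, h2, h3, h⟩ := t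
  exact ⟨α, a, γ, c, β, b, h1, h3, h2, by simp only [dotProduct_comm a, dotProduct_comm b, dotProduct_comm c]; tauto⟩

theorem AD.dual (t : AD T w φ) : AD (fun v φ => T φ v) φ w :=
  let ⟨v, ψ, a, b, c⟩ := t; ⟨ψ, v, b, a, by rwa [dotProduct_comm]⟩

namespace TS

variable (h : TS T)
include h

theorem fr [Finite F] {e f : Fin 3 → ι → F} (d1 : ∀ i, f i ⬝ᵥ e i = 1) (d0 : ∀ {i j}, i ≠ j → f j ⬝ᵥ e i = 0)
    (h1 : T (e 0) (f 2)) (h2 : T (e 1) (f 0)) {μ : F} (h3 : T (μ • e 2) (f 1)) (μ0 : μ ≠ 0) :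
    ∃ K, Fr T K e f := by
  have mul : ∀ {i j k : Fin 3} {a b : F}, i ≠ k → T (a • e i) (f j) → T (b • e j) (f k) →
      T ((a * b) • e i) (f k) := fun hik h1 h2 => by
    simpa [d1, smul_smul, mul_comm] using h.comm h2 h1 (by simp [d0 hik])
  rw [← one_smul F (e _)] at h1 h2
  have h4 : T ((1 : F) • e 2) (f 1) := by
    have := Fintype.ofFinite F
    have k : ∀ n, T (μ ^ (n + 1) • e 2) (f 1) := fun n => by
      induction n with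
      | zero => simpa using h3
      | succ n ih => simpa [pow_succ] using mul (by decide) (mul (by decide) ih h2) (mul (by decide) h1 h3)
    have := k (Fintype.card F - 2)
    rwa [show Fintype.card F - 2 + 1 = Fintype.card F - 1 by have := Fintype.one_lt_card (α := F); omega,
      FiniteField.pow_card_sub_one_eq_one _ μ0] at this
  have t : ∀ {i j}, i ≠ j → T ((1 : F) • e i) (f j) := fun {i j} hij => by
    have k1 := (one_mul (1 : F) ▸ mul (by decide) h1 h4 :)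
    have k2 := (one_mul (1 : F) ▸ mul (by decide) h2 h1 :)
    have k3 := (one_mul (1 : F) ▸ mul (by decide) h4 h2 :)
    fin_cases i <;> fin_cases j <;> first | exact absurd rfl hij | assumption
  have r : ∀ {i j k} {c : F}, i ≠ k → T (c • e i) (f j) → T (c • e i) (f k) := fun {i j k c} hik a => by
    by_cases e : j = k
    exacts [e ▸ a, mul_one c ▸ mul hik a (t e)]
  have l : ∀ {i j k} {c : F}, k ≠ j → T (c • e i) (f j) → T (c • e k) (f j) := fun {i j k c} hik a => by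
    by_cases e : k = i
    exacts [e ▸ a, one_mul c ▸ mul hik (t e) a]
  have m : ∀ {i j k l} {c : F}, k ≠ l → T (c • e i) (f j) → T (c • e k) (f l) := fun {i j k _ c} hk a =>
    let ⟨_, h1, h2⟩ := third i k; r hk (l h2.symm (r h1.symm a))
  let R : Subring F :=
    { carrier := {c | T (c • e 0) (f 1)}
      mul_mem' := fun a b => mul (j := 2) (by decide) (m (by decide) a) (m (by decide) b)
      one_mem' := t (by decide)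
      add_mem' := fun a b => by simpa [add_smul] using h.add a b
      zero_mem' := by simpa using h.zero _
      neg_mem' := fun a => by simpa using h.neg a }
  exact ⟨R.toSubfield fun x hx => by
    by_cases e : x = 0
    · simp [e]
    · exact inv_mem_of_finite R hx (mul_inv_cancel₀ e) (inv_mul_cancel₀ e),
    h, d1, fun k c => ⟨m k, m (by decide)⟩⟩

theorem all [Finite F] (gm : GM T) (t : Tri T) (e : φ ⬝ᵥ v = 0) : T v φ := by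
  obtain ⟨a, α, b, β, c, γ, h1, h2, h3, e1, e2, e3, e4, e5, e6⟩ := t
  have d1 := h.dot h1
  have d2 := h.dot h2
  have d3 := h.dot h3
  obtain ⟨K, k⟩ := h.fr (e := ![a, (β ⬝ᵥ a) • b, (α ⬝ᵥ c)⁻¹ • c])
    (f := ![(β ⬝ᵥ a)⁻¹ • β, (β ⬝ᵥ a * γ ⬝ᵥ b)⁻¹ • γ, α]) (μ := α ⬝ᵥ c * (β ⬝ᵥ a * γ ⬝ᵥ b))
    (fun i => by fin_cases i <;> simp [*]; field_simp)
    (fun {i j} k => by fin_cases i <;> fin_cases j <;> simp [*] at k ⊢) h1 (h.scale e4 h2)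
    (cg (h.scale (mul_ne_zero e4 e6) h3) (by simp [smul_smul]; field_simp) rfl) (by simp [*])
  exact k.all gm e

theorem tri (t : AD T w φ) (b : T u χ) (e : φ ⬝ᵥ u ≠ 0) (e' : χ ⬝ᵥ w ≠ 0)
    (k : ∀ v, T v φ → ∃ c : F, T (c • w) φ ∧ χ ⬝ᵥ v = c * χ ⬝ᵥ w)
    (k' : ∀ ψ, T w ψ → ∃ c : F, T w (c • φ) ∧ u ⬝ᵥ ψ = c * u ⬝ᵥ φ) (a : T w φ) : Tri T := by
  obtain ⟨v, ψ, a1, a2, e1⟩ := t
  obtain ⟨c, c1, c2⟩ := k v a1
  obtain ⟨d, d1, d2⟩ := k' ψ a2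
  rw [dotProduct_comm u, dotProduct_comm u] at d2
  exact ⟨_, _, _, _, _, _, h.sub a1 c1, h.sub' a2 d1, b, h.dot a, e, by simp [d2],
    by simpa [h.dot a, h.dot a1, h.dot a2], by simp [c2], e'⟩

theorem tri_long (t : AD T w φ) (a : T w φ) (w0 : w ≠ 0) (φ0 : φ ≠ 0) (s : ¬ Sh T w φ) : Tri T :=
  let ⟨_, _, b, e, e'⟩ := h.opp a w0 φ0
  h.tri t b e e' (fun _ => h.ker a b e e' s) (fun _ => h.dual.ker a b (by rwa [dotProduct_comm])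
    (by rwa [dotProduct_comm]) (by rwa [h.sh_dual])) a

theorem trans [Finite F] (h2 : (2 : F) = 0) {Q : (ι → F) → (ι → F) → Prop}
    (q1 : ∀ {v φ w ψ}, T w ψ → Q v φ → Q (v + (ψ ⬝ᵥ v) • w) (φ - (φ ⬝ᵥ w) • ψ))
    (q2 : ∀ {v φ} {c : F}, c ≠ 0 → Q (c • v) (c⁻¹ • φ) → Q v φ) (a : T v φ) (v0 : v ≠ 0) (φ0 : φ ≠ 0)
    (q : Q v φ) (b : T u χ) (u0 : u ≠ 0) (χ0 : χ ≠ 0) : Q u χ := by
  have o : ∀ {v φ y ψ}, T v φ → T y ψ → φ ⬝ᵥ y ≠ 0 → ψ ⬝ᵥ v ≠ 0 → Q v φ → Q y ψ := by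
    intro v φ y ψ a b e e' q
    obtain ⟨n, -, hn⟩ := MH.exists_sq h2 ⊤ (x := ψ ⬝ᵥ v / φ ⬝ᵥ y) trivial
    rw [eq_div_iff e] at hn
    have n0 : n ≠ 0 := fun k => e' (by simpa [k] using hn.symm)
    refine q2 n0 (cg (q1 (h.dh h2 a b hn e') q) ?_ ?_) <;>
    · simp only [dotProduct_add, add_dotProduct, dotProduct_smul, smul_dotProduct, smul_eq_mul,
        h.dot a, ← hn]
      clear hn e'
      match_scalars <;> field_simp <;> grind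
  refine h.conn a v0 q φ0 (fun {w φ u χ} a b φ0 u0 e q => ?_) b u0 χ0
  by_cases e1 : φ ⬝ᵥ u = 0
  swap
  · exact o a b e1 e q
  obtain ⟨x, ξ, c, e2, e3⟩ := h.opp (h.comm a b e1) (smul_ne_zero e u0) φ0
  have q3 : Q x ξ := by
    by_cases e4 : ξ ⬝ᵥ w = 0
    · exact o (h.act a b) c (by simpa [e1]) (by simpa [e4] using e3) (q1 b q)
    · exact o a c e2 e4 q
  replace e3 : ξ ⬝ᵥ u ≠ 0 := fun k => e3 (by simp [k])
  by_cases e4 : χ ⬝ᵥ x = 0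
  · simpa [e1, h.dot a] using q1 (h.neg a) (o c (h.act b a) (by simpa [e1]) (by simp [e4, e, e2]) q3)
  · exact o c b e3 e4 q3

theorem four_mem (h2 : (2 : F) = 0) (f : Four T φ) (a : T x φ) (b : T y φ) (x0 : x ≠ 0) (y0 : y ≠ 0)
    (n : x ≠ y) (c : T z φ) : z = 0 ∨ z = x ∨ z = y ∨ z = x + y := by
  obtain ⟨p, q, f⟩ := f
  have aa : ∀ v : ι → F, v + v = 0 := fun v => by rw [← two_smul F, h2, zero_smul]
  have ab : ∀ v w : ι → F, v + (v + w) = w := fun v w => by rw [← add_assoc, aa, zero_add]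
  rcases f x a with rfl | rfl | rfl | rfl <;> rcases f y b with rfl | rfl | rfl | rfl <;>
    first | contradiction | rcases f z c with rfl | rfl | rfl | rfl <;>
      simp [add_assoc, add_left_comm, add_comm, aa, ab]

end TS

/-- Short root groups, asymmetric flags. -/
structure SA (T : (ι → F) → (ι → F) → Prop) : Prop where
  ts : TS T
  sh : ∀ {v φ}, T v φ → v ≠ 0 → φ ≠ 0 → Sh T v φ
  ad : ∀ {v φ}, T v φ → v ≠ 0 → φ ≠ 0 → AD T v φ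
  two : (2 : F) = 0

/-- The span of the neighbours of a centre. -/
def Nb (T : (ι → F) → (ι → F) → Prop) (w : ι → F) : Submodule F (ι → F) :=
  Submodule.span F {x | ∃ κ, κ ≠ 0 ∧ T w κ ∧ T x κ}

theorem mem_Nb (k : κ ≠ 0) (a : T w κ) (b : T x κ) : x ∈ Nb T w := Submodule.subset_span ⟨κ, k, a, b⟩

namespace SA

variable [Finite F] (h : SA T)
include h

theorem dual : SA fun v φ => T φ v :=
  ⟨h.ts.dual, fun a b c => h.ts.sh_dual.2 (h.sh a c b), fun a b c => (h.ad a c b).dual, h.two⟩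

theorem b01 (a : T w φ) (w0 : w ≠ 0) (φ0 : φ ≠ 0) (b : T v φ) (c : T w ψ) : ψ ⬝ᵥ v = 0 ∨ ψ ⬝ᵥ v = 1 :=
  h.sh a w0 φ0 _ (h.ts.comm b c (h.ts.dot a))

theorem four_of (a : T w φ) (b : T u χ) (e : φ ⬝ᵥ u ≠ 0) (e' : χ ⬝ᵥ w ≠ 0) (c : T v φ) (e1 : χ ⬝ᵥ v ≠ 0)
    (e2 : χ ⬝ᵥ v ≠ χ ⬝ᵥ w) : Four T φ := by
  have φ0 : φ ≠ 0 := fun k => e (by simp [k])
  have w0 : w ≠ 0 := fun k => e' (by simp [k])
  have r : ∀ {v}, T v φ → χ ⬝ᵥ v ≠ 0 → χ ⬝ᵥ v ≠ χ ⬝ᵥ w → ∃ l : F, ¬ (l = 0 ∨ l = 1) ∧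
      ∀ x, T x φ → T (l • x + (χ ⬝ᵥ x / χ ⬝ᵥ w) • (l • w + v)) φ := fun c e1 e2 => by
    obtain ⟨l, l0, l1, l2, -⟩ := h.ts.dual.rt h.two a c b (by rwa [dotProduct_comm])
      (by rwa [dotProduct_comm]) (by rwa [dotProduct_comm])
    simp only [dotProduct_comm _ χ] at l1 l2
    exact ⟨l, not_or.2 ⟨l0, fun k => e2 (by simp [← l1, k])⟩, l2⟩
  have inj : ∀ x, T x φ → χ ⬝ᵥ x = 0 → x = 0 := fun x k e3 => by_contra fun x0 =>
    let ⟨l, l0, l1⟩ := r c e1 e2; l0 (h.sh k x0 φ0 l (by simpa [e3] using l1 x k))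
  obtain ⟨y, ψ, y1, y2, y3⟩ := h.ad a w0 φ0
  replace y3 := (h.b01 a w0 φ0 y1 y2).resolve_left y3
  have k : ∀ x, T x φ → ψ ⬝ᵥ x = 0 → x = 0 ∨ x = w := fun x k e3 => by
    by_contra! n
    obtain ⟨l, l0, l1⟩ := r k (fun e4 => n.1 (inj x k e4)) fun e4 =>
      n.2 (sub_eq_zero.1 (inj _ (h.ts.sub k a) (by simp [e4])))
    exact l0 (by simpa [y3, e3, h.ts.dot y2] using h.b01 a w0 φ0 (l1 y y1) y2)
  refine ⟨w, y, fun z c => ?_⟩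
  rcases h.b01 a w0 φ0 c y2 with e3 | e3
  · exact (k z c e3).imp_right .inl
  · exact .inr (.inr ((k _ (h.ts.sub c y1) (by simp [e3, y3])).imp sub_eq_zero.1 sub_eq_iff_eq_add.1))

theorem four_all (a : T w φ) (w0 : w ≠ 0) (φ0 : φ ≠ 0) (f : Four T φ) (b : T u χ) (u0 : u ≠ 0)
    (χ0 : χ ≠ 0) : Four T χ := by
  refine h.ts.trans h.two (Q := fun _ φ => Four T φ) ?_ ?_ a w0 φ0 f b u0 χ0
  · rintro v φ w ψ a ⟨x, y, f⟩
    refine ⟨x + (ψ ⬝ᵥ x) • w, y + (ψ ⬝ᵥ y) • w, fun z c => ?_⟩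
    have e : z = z + (ψ ⬝ᵥ z) • -w + (ψ ⬝ᵥ (z + (ψ ⬝ᵥ z) • -w)) • w := by simp [h.ts.dot a]
    rcases f _ (TS.cg (h.ts.act c (h.ts.neg a)) rfl (by simp [h.ts.dot a])) with k | k | k | k <;>
      rw [k] at e <;> simp [e, add_smul]
    abel_nf; simp
  · rintro v φ c c0 ⟨x, y, f⟩
    refine ⟨c⁻¹ • x, c⁻¹ • y, fun z a => ?_⟩
    simpa [← smul_add, eq_inv_smul_iff₀ c0, c0] using f _ (h.ts.scale c0 a)

variable (f : ∀ {u χ}, T u χ → u ≠ 0 → χ ≠ 0 → Four T χ)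
include f

theorem four_dual (a : T w φ) (w0 : w ≠ 0) (φ0 : φ ≠ 0) : Four (fun v φ => T φ v) w := by
  obtain ⟨u, χ, b, e, e'⟩ := h.ts.opp a w0 φ0
  by_cases I : ∀ κ, T w κ → κ ⬝ᵥ u = 0 ∨ κ ⬝ᵥ u = φ ⬝ᵥ u
  swap
  · push Not at I
    obtain ⟨κ, c, e1, e2⟩ := I
    exact h.dual.four_of a b (by rwa [dotProduct_comm]) (by rwa [dotProduct_comm]) c
      (by rwa [dotProduct_comm]) (by rwa [dotProduct_comm, dotProduct_comm u])
  have u0 : (χ ⬝ᵥ w) • u ≠ 0 := fun k => mul_ne_zero e' e (by simpa using congrArg (φ ⬝ᵥ ·) k)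
  have u1 : w ≠ (χ ⬝ᵥ w) • u := fun k => mul_ne_zero e' e (by
    simpa [h.ts.dot a] using (congrArg (φ ⬝ᵥ ·) k).symm)
  have k : ∀ {ψ z}, T w ψ → ψ ⬝ᵥ u = 0 → ψ ≠ 0 → T z ψ → z = 0 ∨ z = w ∨ z = (χ ⬝ᵥ w) • u ∨
      z = w + (χ ⬝ᵥ w) • u := fun c e1 ψ0 =>
    h.ts.four_mem h.two (f c w0 ψ0) c (h.ts.comm c b e1) w0 u0 u1
  obtain ⟨ψ, k'⟩ : ∃ ψ, ∀ κ, T w κ → κ ⬝ᵥ u = 0 → κ = 0 ∨ κ = ψ := by
    by_contra! n
    obtain ⟨ψ, c, e1, ψ0, -⟩ := n 0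
    obtain ⟨ψ', c', e2, ψ1, ψ2⟩ := n ψ
    obtain ⟨x, κ, x1, x2, x3⟩ := h.ad c w0 ψ0
    have x4 : κ ⬝ᵥ (χ ⬝ᵥ w) • u ≠ 0 := fun e3 => by
      rcases k c e1 ψ0 x1 with rfl | rfl | rfl | rfl <;> simp [h.ts.dot x2, e3, -dotProduct_smul] at x3
    obtain ⟨y, κ', y1, y2, y3⟩ := h.ad x2 w0 fun k => x3 (by simp [k])
    have m : ∀ {ξ}, T w ξ → ξ ⬝ᵥ u = 0 → ξ ≠ 0 → ξ ⬝ᵥ y = 1 := fun c e1 ξ0 =>
      (h.b01 x2 w0 (fun k => x3 (by simp [k])) y1 c).resolve_left fun e3 => by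
        have := h.ts.comm (h.ts.comm c b e1) y1 e3
        rw [(h.b01 c w0 ξ0 (h.ts.comm c b e1) x2).resolve_left x4, one_smul] at this
        have d := h.ts.dot y1
        rcases k c e1 ξ0 this with rfl | rfl | rfl | rfl
        exacts [y3 (by simp), y3 (h.ts.dot y2), x4 d, x4 (by rwa [dotProduct_add, h.ts.dot x2, zero_add] at d)]
    simpa [m c e1 ψ0, m c' e2 ψ1] using m (h.ts.sub' c' c) (by simp [e1, e2]) (sub_ne_zero.2 ψ2)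
  refine ⟨ψ, φ, fun κ c => ?_⟩
  rcases I κ c with e1 | e1
  · exact (k' κ c e1).imp_right .inl
  · exact .inr (.inr ((k' _ (h.ts.sub' c a) (by simp [e1])).imp sub_eq_zero.1 sub_eq_iff_eq_add.1))

theorem tr3 (a : T w φ) (w0 : w ≠ 0) (φ0 : φ ≠ 0) (b : T v φ) (v0 : v ≠ 0) (n : w ≠ v) :
    ∃ ψ y, T w ψ ∧ T y ψ ∧ ψ ⬝ᵥ v = 1 ∧ φ ⬝ᵥ y = 1 := by
  have k := fun z => h.ts.four_mem (z := z) h.two (f a w0 φ0) a b w0 v0 n
  obtain ⟨x, ψ, x1, x2, x3⟩ := h.ad a w0 φ0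
  have e := (h.b01 a w0 φ0 b x2).resolve_left fun e => by
    rcases k _ x1 with rfl | rfl | rfl | rfl <;> simp [h.ts.dot x2, e] at x3
  have ψ0 : ψ ≠ 0 := fun k => x3 (by simp [k])
  obtain ⟨y, κ, y1, y2, y3⟩ := h.ad x2 w0 ψ0
  refine ⟨ψ, y, x2, y1, e, (h.b01 x2 w0 ψ0 y1 a).resolve_left fun e1 => ?_⟩
  have d := h.ts.dot y1
  rcases k y (by simpa [e] using h.ts.comm b y1 e1) with rfl | rfl | rfl | rfl
  exacts [y3 (by simp), y3 (h.ts.dot y2), by simp [e] at d, by simp [e, h.ts.dot x2] at d]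

theorem nb_le (a : T w φ) (w0 : w ≠ 0) (φ0 : φ ≠ 0) (b : T v φ) (v0 : v ≠ 0) : Nb T v ≤ Nb T w := by
  by_cases n : w = v
  · exact n ▸ le_rfl
  obtain ⟨ψ, y, c, d, e1, e2⟩ := h.tr3 f a w0 φ0 b v0 n
  have m1 := mem_Nb φ0 a b
  have m2 := mem_Nb (fun k => by simp [k] at e1) c d
  refine Submodule.span_le.2 fun x ⟨η, η0, x1, x2⟩ => ?_
  by_cases e3 : η ⬝ᵥ y = 0
  · rcases h.ts.four_mem h.two (f x1 v0 η0) x1 (y := y) (by simpa [e1] using h.ts.comm x1 d e3) v0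
      (fun k => by simp [k] at e2) (fun k => by simp [k, h.ts.dot d] at e1) x2 with rfl | rfl | rfl | rfl
    exacts [zero_mem _, m1, m2, add_mem m1 m2]
  · obtain ⟨l, l0, -, -, k⟩ := h.ts.rt h.two x1 b d (by simp [e1]) e3 (by simp [e2])
    obtain ⟨α, β, k⟩ := k x x2
    exact (Submodule.add_mem_iff_left _ (Submodule.smul_mem _ α m1)).1 ((Submodule.add_mem_iff_left _
      (Submodule.smul_mem _ β m2)).1 ((Submodule.smul_mem_iff _ (inv_ne_zero l0)).1 (mem_Nb φ0 a k)))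

theorem mem_nb (a : T x φ) (x0 : x ≠ 0) (φ0 : φ ≠ 0) (b : T u χ) (e : χ ⬝ᵥ x ≠ 0) : u ∈ Nb T x := by
  by_contra n
  have n1 : ∀ {y κ}, T y φ → T y κ → κ ≠ 0 → χ ⬝ᵥ y ≠ 0 → κ ⬝ᵥ u ≠ 0 := fun c d κ0 e1 e2 =>
    n (h.nb_le f a x0 φ0 c (fun k => e1 (by simp [k])) ((Submodule.smul_mem_iff _ e1).1
      (mem_Nb κ0 d (h.ts.comm d b e2))))
  have e1 := n1 a a φ0 e
  have n2 : ∀ {y}, T y φ → y ≠ 0 → χ ⬝ᵥ y ≠ 0 := fun c y0 e2 =>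
    n (h.nb_le f a x0 φ0 c y0 ((Submodule.smul_mem_iff _ (inv_ne_zero e1)).1 (mem_Nb (smul_ne_zero e1 fun k =>
      e (by simp [k])) ((h.ts.smul _).1 (h.ts.comm b c e2)) (by simpa using h.ts.scale (inv_ne_zero e1) b))))
  obtain ⟨y, κ, c, d, e2⟩ := h.ad a x0 φ0
  have y0 : y ≠ 0 := fun k => e2 (by simp [k])
  have y1 : x ≠ y := fun k => e2 (k ▸ h.ts.dot d)
  have r : ∀ {x y}, T x φ → T y φ → x ≠ 0 → y ≠ 0 → x ≠ y → ∃ ψ, T x ψ ∧ ψ ⬝ᵥ y = 1 ∧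
      (ψ ⬝ᵥ u) ^ 2 + ψ ⬝ᵥ u * φ ⬝ᵥ u + (φ ⬝ᵥ u) ^ 2 = 0 := fun {x y} a c x0 y0 y1 => by
    obtain ⟨ψ, -, p1, -, p2, -⟩ := h.tr3 f a x0 φ0 c y0 y1
    exact ⟨ψ, p1, p2, h.ts.root h.two a p1 b (n2 a x0) e1 (n1 a p1 (fun k => by simp [k] at p2) (n2 a x0))
      (fun k => n1 a (h.ts.sub' p1 a) (fun k => by simpa [p2, h.ts.dot c] using congrArg (· ⬝ᵥ y) k)
        (n2 a x0) (by simp [k])) (h.ts.dot c) p2 fun κ => h.b01 a x0 φ0 c⟩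
  obtain ⟨ψ, p1, p2, p3⟩ := r a c x0 y0 y1
  obtain ⟨η, q1, q2, q3⟩ := r c a y0 x0 y1.symm
  have s := h.ts.act q1 p1
  rw [p2, q2, one_smul, one_smul] at s
  have s1 := h.ts.add c a
  have s2 := n2 s1 fun k => by simpa [p2, h.ts.dot p1] using congrArg (ψ ⬝ᵥ ·) k
  have t := h.two
  rcases two_roots t p3 q3 with r | r
  · exact n1 s1 s (fun k => by simpa [q2, h.ts.dot p1] using congrArg (· ⬝ᵥ x) k) s2 (by
      rw [sub_dotProduct]; linear_combination r - ψ ⬝ᵥ u * t)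
  · exact n1 s1 (h.ts.add' s s1) (fun k => by simpa [q2, h.ts.dot p1, h.ts.dot a] using congrArg (· ⬝ᵥ x) k) s2
      (by rw [add_dotProduct, sub_dotProduct]; linear_combination r - ψ ⬝ᵥ u * t)

theorem card_le (a : T w φ) (w0 : w ≠ 0) (φ0 : φ ≠ 0) : Fintype.card ι ≤ 3 := by
  by_contra! n
  obtain ⟨v, κ, b, d, e⟩ := h.ad a w0 φ0
  have v0 : v ≠ 0 := fun k => e (by simp [k])
  have v1 : w ≠ v := fun k => e (k ▸ h.ts.dot d)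
  obtain ⟨ψ, y, c, d, e1, e2⟩ := h.tr3 f a w0 φ0 b v0 v1
  obtain ⟨z, hz⟩ := exists_notMem_span ![w, v, y] (by simpa)
  have m : ∀ i, ![w, v, y] i ∈ Submodule.span F (Set.range ![w, v, y]) := fun i =>
    Submodule.subset_span ⟨i, rfl⟩
  have ψ0 : ψ ≠ 0 := fun k => by simp [k] at e1
  have k : ∀ {κ x u}, κ ≠ 0 → T w κ → T x κ → T u κ → φ ⬝ᵥ u = 1 ∨ ψ ⬝ᵥ u = 1 →
      u ∈ Submodule.span F (Set.range ![w, v, y]) → x ∈ Submodule.span F (Set.range ![w, v, y]) := by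
    intro κ x u κ0 a1 a2 a3 e3 mu
    rcases h.ts.four_mem h.two (f a1 w0 κ0) a1 a3 w0 (fun k => by simp [k] at e3)
      (fun k => by simp [← k, h.ts.dot a, h.ts.dot c] at e3) a2 with rfl | rfl | rfl | rfl
    exacts [zero_mem _, m 0, mu, add_mem (m 0) mu]
  refine hz ((Submodule.span_le.2 fun x ⟨κ, κ0, x1, x2⟩ => ?_ : Nb T w ≤ _) ((h.ts.span_top
    (S := {x | ∃ κ, κ ≠ 0 ∧ T w κ ∧ T x κ}) ⟨w, ⟨φ, φ0, a, a⟩, w0⟩ fun x ⟨κ, κ0, x1, x2⟩ u χ r e3 => ?_).ge (Submodule.mem_top (x := z))))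
  · rcases h.ts.dual.four_mem h.two (h.four_dual f a w0 φ0) a c φ0 ψ0
      (fun k => by simp [← k, h.ts.dot b] at e1) x1 with rfl | rfl | rfl | rfl
    · exact absurd rfl κ0
    · exact k κ0 a x2 b (.inr e1) (m 1)
    · exact k κ0 c x2 d (.inl e2) (m 2)
    · exact k κ0 x1 x2 (TS.cg (h.ts.act d (h.ts.neg b)) rfl (by simp [e1, add_comm])) (.inl (by
        simp [e2, h.ts.dot b])) (add_mem (m 2) (Submodule.smul_mem _ _ (neg_mem (m 1))))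
  · have x0 : x ≠ 0 := fun k => e3 (by simp [k])
    exact h.nb_le f x1 w0 κ0 x2 x0 (h.mem_nb f x2 x0 κ0 r e3)

end SA

theorem SA.tri [Finite F] (h : SA T) (hι : 3 < Fintype.card ι) (a : T w φ) (w0 : w ≠ 0) (φ0 : φ ≠ 0) :
    Tri T := by
  obtain ⟨u, χ, b, e, e'⟩ := h.ts.opp a w0 φ0
  have k : ∀ {T : (ι → F) → (ι → F) → Prop} {w φ u χ}, SA T → T w φ → T u χ → φ ⬝ᵥ u ≠ 0 → χ ⬝ᵥ w ≠ 0 →
      ∀ v, T v φ → ∃ c : F, T (c • w) φ ∧ χ ⬝ᵥ v = c * χ ⬝ᵥ w := by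
    intro T w φ u χ h a b e e' v c
    have φ0 : φ ≠ 0 := fun k => e (by simp [k])
    have w0 : w ≠ 0 := fun k => e' (by simp [k])
    by_cases e1 : χ ⬝ᵥ v = 0
    · exact ⟨0, by simpa using h.ts.zero φ, by simp [e1]⟩
    by_cases e2 : χ ⬝ᵥ v = χ ⬝ᵥ w
    · exact ⟨1, by simpa, by simpa⟩
    exact absurd (h.card_le (h.four_all a w0 φ0 (h.four_of a b e e' c e1 e2)) a w0 φ0) hι.not_ge
  exact h.ts.tri (h.ad a w0 φ0) b e e' (k h a b e e') (k h.dual a b (by rwa [dotProduct_comm])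
    (by rwa [dotProduct_comm])) a

theorem TS.lin [Finite F] (h : TS T) (hι : 3 < Fintype.card ι) (a : T v φ) (b : T w ψ) (e : φ ⬝ᵥ w = 0)
    (e' : ψ ⬝ᵥ v ≠ 0) (w0 : w ≠ 0) (φ0 : φ ≠ 0) : Tri T := by
  have c := h.comm a b e
  have c0 := smul_ne_zero e' w0
  have t : AD T ((ψ ⬝ᵥ v) • w) φ := ⟨v, _, a, h.scale e' b, by simp [e']⟩
  by_cases s : Sh T ((ψ ⬝ᵥ v) • w) φ
  swap
  · exact h.tri_long t c c0 φ0 s
  have h2 := h.two c s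
  refine SA.tri ⟨h, h.trans h2 ?_ ?_ c c0 φ0 s, h.trans h2 ?_ ?_ c c0 φ0 t, h2⟩ hι c c0 φ0
  · exact fun a s c b => s c (TS.cg (h.act b (h.neg a)) (by simp [h.dot a, smul_smul])
      (by simp [h.dot a]))
  · exact fun {v φ c} c0 s d b => s d (by simpa [smul_comm d] using h.scale c0 b)
  · rintro v φ w ψ a ⟨x, ξ, b, c, e⟩
    exact ⟨_, _, h.act b a, h.act c a, by simpa [h.dot a, mul_comm]⟩
  · rintro v φ c c0 ⟨x, ξ, b, d, e⟩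
    exact ⟨_, _, (h.smul _).2 b, (h.smul _).1 d, by simpa [c0]⟩

end CF.D5T
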