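/-
Systems of transvections: the symmetric case, root groups.
-/
import Cfsg.Agent.D5.T3

set_option autoImplicit false
set_option linter.unusedSectionVars false

namespace CF.D5T

open Matrix CF.MaxSub

variable {ι : Type} [Fintype ι] [DecidableEq ι] {F : Type*} [Field F]
  {T : (ι → F) → (ι → F) → Prop} {u v w x y z φ ψ χ η κ ρ δ : ι → F}

/-- A commutator formula. -/
def CM (T : (ι → F) → (ι → F) → Prop) : Prop := ∀ ⦃y η y' η' ρ δ⦄, T y η → T (y + ρ) (η + δ) → T y' η' →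
  T (y' + ρ) (η' + δ) → η ⬝ᵥ ρ = 0 → η' ⬝ᵥ ρ = 0 → δ ⬝ᵥ ρ = 0 → δ ⬝ᵥ y = 0 → δ ⬝ᵥ y' = 0 →
    T ((η ⬝ᵥ y' - η' ⬝ᵥ y) • ρ) δ

/-- Symmetric orthogonality, long root groups. -/
structure SY (T : (ι → F) → (ι → F) → Prop) : Prop where
  ts : TS T
  sym : ∀ {v φ w ψ}, T v φ → T w ψ → w ≠ 0 → φ ≠ 0 → φ ⬝ᵥ w = 0 → ψ ⬝ᵥ v = 0
  lng : ∀ {v φ}, T v φ → v ≠ 0 → φ ≠ 0 → ¬ Sh T v φ

namespace SY

variable (h : SY T)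
include h

theorem dual : SY fun v φ => T φ v :=
  ⟨h.ts.dual, fun a b c d e => (dotProduct_comm ..).trans (h.sym b a d c ((dotProduct_comm ..).trans e)),
    fun a b c => h.ts.sh_dual.not.2 (h.lng a c b)⟩

theorem ne (a : T v φ) (b : T w ψ) (e : ψ ⬝ᵥ v ≠ 0) (w0 : w ≠ 0) (φ0 : φ ≠ 0) : φ ⬝ᵥ w ≠ 0 :=
  fun k => e (h.sym a b w0 φ0 k)

theorem uniq (a : T v φ) (b : T w φ) (v0 : v ≠ 0) (φ0 : φ ≠ 0) : ∃ c : F, w = c • v := by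
  obtain ⟨u, χ, c, e, e'⟩ := h.ts.opp a v0 φ0
  obtain ⟨k, k1, k2⟩ := h.ts.ker a c e e' (h.lng a v0 φ0) b
  exact ⟨k, sub_eq_zero.1 (by_contra fun n => e (h.sym c (h.ts.sub b k1) n (fun k => e' (by simp [k]))
    (by simp [k2])))⟩

section three
variable (cm : CM T) (h3 : (3 : F) = 0) (t : ∀ {v φ}, T v φ → v ≠ 0 → φ ≠ 0 → Th T v φ)
include cm h3 t

theorem nb0 (a : T v φ) (b : T w ψ) (c : T y η) (d : T (y + ρ) (η + δ)) (e1 : η ⬝ᵥ ρ = 0) (e2 : δ ⬝ᵥ ρ = 0)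
    (e3 : δ ⬝ᵥ y = 0) (e4 : φ ⬝ᵥ ρ = 0) (e5 : ψ ⬝ᵥ ρ = 0) (e6 : δ ⬝ᵥ v = 0) (e7 : δ ⬝ᵥ w = 0) (ρ0 : ρ ≠ 0)
    (δ0 : δ ≠ 0) {i : F} (hi : i ^ 2 = -1) (e8 : η ⬝ᵥ w * ψ ⬝ᵥ y ≠ 0)
    (e9 : η ⬝ᵥ v * φ ⬝ᵥ y = i * (η ⬝ᵥ w * ψ ⬝ᵥ y)) : False := by
  have k : ∀ {v φ}, T v φ → φ ⬝ᵥ ρ = 0 → δ ⬝ᵥ v = 0 → T ((η ⬝ᵥ v * φ ⬝ᵥ y) • ρ) δ := fun a e e' =>
    TS.cg (cm (h.ts.act c a) (TS.cg (h.ts.act d a) (by simp [e]; abel) (by simp [e']; abel)) c d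
      (by simp [e, e1]) e1 e2 (by simp [e', e3]) e3) (by
        congr 1; simp [h.ts.dot c]; linear_combination (η ⬝ᵥ _ * _ ⬝ᵥ y) * h3) rfl
  rcases t (k b e5 e7) (smul_ne_zero e8 ρ0) δ0 i (by rw [smul_smul, ← e9]; exact k a e4 e6) with e | e | e <;>
    rw [e] at hi
  · simp at hi
  · exact one_ne_zero (by linear_combination h3 - hi : (1 : F) = 0)
  · exact one_ne_zero (by linear_combination h3 - hi : (1 : F) = 0)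

theorem nb1 (a : T v φ) (b : T w ψ) (c : T u χ) (e1 : φ ⬝ᵥ w = 1) {i : F} (ei : ψ ⬝ᵥ v = i) (hi : i ^ 2 = -1)
    (e2 : χ ⬝ᵥ v = 0) (e3 : χ ⬝ᵥ w = 1) (n : ∀ k : F, u ≠ k • v) : False := by
  have i0 : i ≠ 0 := fun e => by simp [e] at hi
  have v0 : v ≠ 0 := fun e => i0 (by simp [e, ← ei])
  have χ0 : χ ≠ 0 := fun e => by simp [e] at e3
  have δ0 : χ - φ ≠ 0 := fun e => let ⟨k, hk⟩ := h.uniq (sub_eq_zero.1 e ▸ a) c v0 χ0; n k hk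
  have d1 := h.ts.dot a
  have d2 := h.ts.dot b
  have A : T (w - i • v) (i • (ψ - φ)) := by
    refine TS.cg ((h.ts.smul (1 - i)).1 (TS.cg (h.ts.act (h.ts.act (h.ts.act b a) (h.ts.neg b)) a) ?_ rfl))
      rfl ?_ <;> simp [d1, d2, e1, ei] <;> match_scalars <;> grind
  have B : T (w + i • v) (i • (ψ + φ)) := by
    refine TS.cg (h.ts.neg' ((h.ts.smul (1 + i)).1 (TS.cg (h.ts.act (h.ts.act (h.ts.act b a) b) a) ?_ rfl)))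
      rfl ?_ <;> simp [d1, d2, e1, ei] <;> match_scalars <;> grind
  have k : ∀ {u}, T u χ → (∀ k : F, u ≠ k • v) → ψ ⬝ᵥ u ≠ i ∧ ψ ⬝ᵥ u ≠ -1 := fun {u} c n => by
    have d3 := h.ts.dot c
    have d4 := h.sym c a v0 χ0 e2
    refine ⟨fun e => h.nb0 cm h3 t a b (h.ts.act b a) (ρ := u - v) (δ := -i • (χ - φ))
      (TS.cg (h.ts.act b c) ?_ ?_) ?_ ?_ ?_ ?_ ?_ ?_ ?_ (sub_ne_zero.2 (by simpa using n 1))
      (smul_ne_zero (neg_ne_zero.2 i0) δ0) hi ?_ ?_,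
      fun e => h.nb0 cm h3 t a b A (ρ := u - i • v) (δ := i • (χ - φ))
      (TS.cg (h.ts.act B c) ?_ ?_) ?_ ?_ ?_ ?_ ?_ ?_ ?_ (sub_ne_zero.2 (n i))
      (smul_ne_zero i0 δ0) (i := -i) (by simpa) ?_ ?_⟩ <;> simp [d1, d2, d3, d4, e, e1, e2, e3, ei, i0] <;>
    first | grind | (match_scalars <;> grind)
  have k1 := k c n
  have k2 := k (h.ts.neg c) fun k e => n (-k) (by simp [← e])
  have u0 : u ≠ 0 := by simpa using n 0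
  have k3 := h.ts.mu4 h3 c b (t b (fun e => by simp [e] at e1) fun e => i0 (by simp [e, ← ei]))
  have k4 := h.ne b c (by simp [e3]) u0 fun e => i0 (by simp [e, ← ei])
  rw [e3, one_mul] at k3
  rw [dotProduct_neg] at k2
  generalize ψ ⬝ᵥ u = b at *
  clear k n A B t cm h a c d1 d2 e1 e2 e3 ei
  grind

theorem nb2 (a : T v φ) (b : T w ψ) (c : T u χ) (hi : (φ ⬝ᵥ w * ψ ⬝ᵥ v) ^ 2 = -1) (e2 : χ ⬝ᵥ v = 0)
    (e3 : χ ⬝ᵥ w ≠ 0) (n : ∀ k : F, u ≠ k • v) : False := by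
  have e : φ ⬝ᵥ w ≠ 0 := fun e => by simp [e] at hi
  refine h.nb1 cm h3 t a (h.ts.scale (inv_ne_zero e) b) (h.ts.scale (div_ne_zero e3 e) c) (by simp [e]) rfl
    (by simpa) (by simp [e2]) (by simp; field_simp) fun k hk => n ((χ ⬝ᵥ w / φ ⬝ᵥ w)⁻¹ * k) ?_
  rw [mul_smul, ← hk, inv_smul_smul₀ (div_ne_zero e3 e)]

theorem no9 (hι : 2 < Fintype.card ι) (a : T v φ) (b : T w ψ) : (φ ⬝ᵥ w * ψ ⬝ᵥ v) ^ 2 ≠ -1 := fun hi => by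
  have e : φ ⬝ᵥ w ≠ 0 := fun e => by simp [e] at hi
  have e' : ψ ⬝ᵥ v ≠ 0 := fun e => by simp [e] at hi
  let L := Submodule.span F (Set.range ![v, w])
  have mv : v ∈ L := Submodule.subset_span ⟨0, rfl⟩
  have mw : w ∈ L := Submodule.subset_span ⟨1, rfl⟩
  have mL : ∀ x ∈ L, ∃ a b : F, x = a • v + b • w := fun x hx => by
    obtain ⟨c, rfl⟩ := (Submodule.mem_span_range_iff_exists_fun F).1 hx
    exact ⟨c 0, c 1, by simp⟩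
  obtain ⟨u, χ, c, x, hx, k⟩ : ∃ u χ, T u χ ∧ ∃ x ∈ L, (χ ⬝ᵥ x) • u ∉ L := by
    by_contra! k
    rcases h.ts.irr L k with k | k
    · exact e' (by simp [(Submodule.eq_bot_iff _).1 k v mv])
    · exact let ⟨z, hz⟩ := exists_notMem_span ![v, w] (by simpa); hz (k.ge (Submodule.mem_top (x := z)))
  have uL : u ∉ L := fun e => k (L.smul_mem _ e)
  have u0 : u ≠ 0 := fun e => uL (e ▸ zero_mem _)
  have χ0 : ¬ (χ ⬝ᵥ v = 0 ∧ χ ⬝ᵥ w = 0) := fun ⟨e1, e2⟩ => k (by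
    obtain ⟨a, b, rfl⟩ := mL x hx
    simp [e1, e2])
  let P := fun v' φ' => T v' φ' ∧ v' ∈ L ∧ ∃ w' ψ', T w' ψ' ∧ w' ∈ L ∧ (φ' ⬝ᵥ w' * ψ' ⬝ᵥ v') ^ 2 = -1
  have key : ∀ {v' φ'}, P v' φ' → (φ' ⬝ᵥ u * χ ⬝ᵥ v') ^ 4 = 1 := by
    rintro v' φ' ⟨a', m1, w', ψ', b', m2, hi'⟩
    have f : φ' ⬝ᵥ w' ≠ 0 := fun e => by simp [e] at hi'
    have f' : ψ' ⬝ᵥ v' ≠ 0 := fun e => by simp [e] at hi'
    have e1 : χ ⬝ᵥ v' ≠ 0 := fun e1 => h.nb2 cm h3 t a' b' c hi' e1 (fun e2 => by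
      have d1 := h.ts.dot a'
      have d2 := h.ts.dot b'
      obtain ⟨a1, b1, rfl⟩ := mL _ m1
      obtain ⟨a2, b2, rfl⟩ := mL _ m2
      simp only [dotProduct_add, dotProduct_smul, smul_eq_mul] at *
      clear k mL P c h cm t hi hi'
      grind) fun k e => uL (e ▸ L.smul_mem k m1)
    exact mul_left_cancel₀ (mul_ne_zero (h.ne a' c e1 u0 fun e => f (by simp [e])) e1) (by
      linear_combination h.ts.mu4 h3 a' c (t c u0 fun e => e1 (by simp [e])))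
  have pa : ∀ {v' φ' x ξ}, P v' φ' → T x ξ → x ∈ L → P (v' + (ξ ⬝ᵥ v') • x) (φ' - (φ' ⬝ᵥ x) • ξ) := by
    rintro v' φ' x ξ ⟨a', m1, w', ψ', b', m2, hi'⟩ d m
    exact ⟨h.ts.act a' d, add_mem m1 (L.smul_mem _ m), _, _, h.ts.act b' d, add_mem m2 (L.smul_mem _ m), by
      simpa [h.ts.dot d, mul_comm] using hi'⟩
  have k1 := key ⟨a, mv, w, ψ, b, mw, hi⟩
  let S := fun s t : F => P (s • w + (t * φ ⬝ᵥ w) • v) (s • ψ - (t * ψ ⬝ᵥ v) • φ)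
  have sg : ∀ {v φ : ι → F} {k : F}, T v φ → (k = 0 ∨ k = 1 ∨ k = -1) → T (k • v) φ := by
    rintro v φ k a (rfl | rfl | rfl)
    exacts [by simpa using h.ts.zero φ, by simpa, by simpa using h.ts.neg a]
  have s1 : ∀ {s t k}, S s t → (k = 0 ∨ k = 1 ∨ k = -1) → S s (t + k * s) := fun c hk =>
    TS.cg (pa c (sg a hk) (L.smul_mem _ mv)) (by simp [h.ts.dot a]; module) (by simp [h.ts.dot a]; module)
  have s0 : S 1 0 := by simpa [S] using ⟨b, mw, v, φ, a, mv, by rwa [mul_comm]⟩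
  have s2 : ∀ {k}, (k = 0 ∨ k = 1 ∨ k = -1) → S (1 + k * (φ ⬝ᵥ w * ψ ⬝ᵥ v)) 1 := fun hk =>
    TS.cg (pa (s1 s0 (.inr (.inl rfl))) (sg b hk) (L.smul_mem _ mw)) (by simp [h.ts.dot b]; module)
      (by simp [h.ts.dot b]; module)
  have := MH.aux9 (P := ψ ⬝ᵥ u * χ ⬝ᵥ w) (Q := φ ⬝ᵥ w * χ ⬝ᵥ v * ψ ⬝ᵥ u - ψ ⬝ᵥ v * φ ⬝ᵥ u * χ ⬝ᵥ w)
    (R := -(φ ⬝ᵥ w * ψ ⬝ᵥ v) * (φ ⬝ᵥ u * χ ⬝ᵥ v)) h3 hi fun s t hs ⟨k, hk, ht⟩ => by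
      have h1 : S s t := by
        rcases ht with ⟨rfl, rfl⟩ | ⟨rfl, ht⟩
        · simpa using s1 s0 hk
        · refine s1 ?_ hk
          rcases hs.resolve_left ht with rfl | rfl
          exacts [by simpa using s2 (.inr (.inl rfl)), by simpa [sub_eq_add_neg] using s2 (.inr (.inr rfl))]
      rw [← key h1]
      simp; ring
  rw [mul_pow, k1, mul_one] at this
  exact mul_ne_zero e e' (neg_eq_zero.1 (pow_eq_zero_iff (by norm_num) |>.1 this))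

end three

theorem star (cm : CM T) (hι : 2 < Fintype.card ι) (a : T v φ) (v0 : v ≠ 0) (φ0 : φ ≠ 0) :
    ∃ K : Subfield F, (∃ k ∈ K, k ≠ 0 ∧ k ≠ 1) ∧ (∀ {w ψ}, T w ψ → w ≠ 0 → ψ ≠ 0 → RK T K w ψ) ∧
      ∀ {u χ w ψ}, T u χ → T w ψ → χ ⬝ᵥ w * ψ ⬝ᵥ u ∈ K := by
  have k : ∀ {v φ w ψ}, T v φ → T w ψ → φ ≠ 0 → w ≠ 0 → ψ ⬝ᵥ v ≠ 0 →
      ∃ K, RK T K v φ ∧ RK T K w ψ ∧ φ ⬝ᵥ w * ψ ⬝ᵥ v ∈ K := fun {v φ w ψ} a b φ0 w0 e => by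
    have v0 : v ≠ 0 := fun k => e (by simp [k])
    refine ((h.ts.pair a b (h.ne a b e w0 φ0) e).resolve_left fun k => h.lng a v0 φ0 k.1).resolve_left
      fun ⟨h3, t, _, k⟩ => h.no9 cm h3 (h.ts.conn a v0 t φ0 fun a b φ0 u0 e t => ?_) hι a b k
    rcases h.ts.pair a b (h.ne a b e u0 φ0) e with k | k | ⟨K, k, k', -⟩
    exacts [fun c hc => (k.2 c hc).imp_right .inl, k.2.2.1, fun c hc => t c ((k c).1 ((k' c).2 hc))]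
  obtain ⟨u, χ, c, e, e'⟩ := h.ts.opp a v0 φ0
  obtain ⟨K, k1, -⟩ := k a c φ0 (fun k => e (by simp [k])) e'
  have r : ∀ {w ψ}, T w ψ → w ≠ 0 → ψ ≠ 0 → RK T K w ψ := h.ts.conn a v0 k1 φ0 fun a b φ0 u0 e t c =>
    let ⟨_, k2, k3, _⟩ := k a b φ0 u0 e; (t c).trans ((k2 c).symm.trans (k3 c))
  refine ⟨K, ?_, r, fun {u χ w ψ} a b => ?_⟩
  · by_contra! n
    exact h.lng a v0 φ0 fun c hc => or_iff_not_imp_left.2 (n c ((k1 c).2 hc))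
  by_cases e : χ ⬝ᵥ w * ψ ⬝ᵥ u = 0
  · simp [e]
  have χ0 : χ ≠ 0 := fun k => e (by simp [k])
  obtain ⟨K', k2, -, k3⟩ := k a b χ0 (fun k => e (by simp [k])) (right_ne_zero_of_mul e)
  exact (r a (fun k => e (by simp [k])) χ0 _).2 ((k2 _).1 k3)

theorem span (a : T v φ) (v0 : v ≠ 0) (φ0 : φ ≠ 0) :
    Submodule.span F {x | ∃ ξ, T x ξ ∧ φ ⬝ᵥ x ≠ 0 ∧ ξ ⬝ᵥ v ≠ 0} = ⊤ := by
  obtain ⟨u, χ, c, e, e'⟩ := h.ts.opp a v0 φ0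
  refine h.ts.span_top ⟨u, ⟨χ, c, e, e'⟩, fun k => e (by simp [k])⟩ fun x ⟨ξ, x1, x2, x3⟩ u χ c e => ?_
  have χ0 : χ ≠ 0 := fun k => e (by simp [k])
  by_cases e1 : φ ⬝ᵥ u = 0
  · by_cases u0 : u = 0
    · simp [u0]
    exact TS.mem_of_add e (Submodule.subset_span ⟨ξ, x1, x2, x3⟩) (Submodule.subset_span
      ⟨_, h.ts.act x1 c, by simpa [e1], by simpa [h.sym a c u0 φ0 e1]⟩)
  · exact Submodule.subset_span ⟨χ, c, e1, h.ne c a e1 v0 χ0⟩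

end SY

end CF.D5T
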