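/-
Systems of transvections: the symmetric case, the invariant form.
-/
import Cfsg.Agent.D5.T4

set_option autoImplicit false
set_option linter.unusedSectionVars false

namespace CF.D5T

open Matrix CF.MaxSub

variable {ι : Type} [Fintype ι] [DecidableEq ι] {F : Type*} [Field F]
  {T : (ι → F) → (ι → F) → Prop} {u v w x y z e d ψ χ η ξ : ι → F}

theorem exists_rows {A : Set (ι → F)} (h : Submodule.span F A = ⊤) : ∃ P : GL ι F, ∀ j, P.val j ∈ A := by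
  obtain ⟨b, h1, h2, h3⟩ := exists_linearIndependent F A
  have := h3.finite
  have := Fintype.ofFinite b
  let e : ι ≃ b := Fintype.equivOfCardEq (by
    simpa using Module.finrank_eq_card_basis (Module.Basis.mk h3 (by simp [h2, h])))
  obtain ⟨P, hP⟩ := (linearIndependent_rows_iff_isUnit (A := of fun j => (e j).1)).1 (h3.comp e e.injective)
  exact ⟨P, fun j => hP ▸ h1 (e j).2⟩

/-- The polarity of a form. -/
def th (φ : FD ι F) (x : ι → F) : ι → F := φ.G.val *ᵥ (φ.σ ∘ x)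

theorem th_dot (φ : FD ι F) (x y : ι → F) : th φ x ⬝ᵥ y = φ.f y x := dotProduct_comm ..

theorem th_add (φ : FD ι F) (x y : ι → F) : th φ (x + y) = th φ x + th φ y :=
  dotProduct_eq _ _ fun z => by simp [th_dot, φ.f_add_right]

theorem th_smul (φ : FD ι F) (c : F) (x : ι → F) : th φ (c • x) = φ.σ c • th φ x :=
  dotProduct_eq _ _ fun z => by simp [th_dot, φ.f_smul_right]

theorem th_ne (φ : FD ι F) (h : x ≠ 0) : th φ x ≠ 0 := fun e =>
  h (φ.eq_zero_of_left fun u => by rw [← th_dot, e, zero_dotProduct])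

/-- The root groups are a fixed subfield. -/
structure SK (T : (ι → F) → (ι → F) → Prop) (K : Subfield F) (σ : F →+* F) : Prop extends SY T where
  fix : ∀ x, σ x = x ↔ x ∈ K
  big : ∃ k ∈ K, k ≠ 0 ∧ k ≠ 1
  rk : ∀ {w ψ}, T w ψ → w ≠ 0 → ψ ≠ 0 → RK T K w ψ
  pv : ∀ {u χ w ψ}, T u χ → T w ψ → χ ⬝ᵥ w * ψ ⬝ᵥ u ∈ K

namespace SK

variable {K : Subfield F} {σ : F →+* F} (h : SK T K σ)
include h

theorem ksm (a : T w ψ) {k : F} (hk : k ∈ K) : T (k • w) ψ := by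
  by_cases e : w = 0 ∨ ψ = 0
  · rcases e with rfl | rfl
    exacts [by simpa using a, h.ts.zero' _]
  · exact (h.rk a (not_or.1 e).1 (not_or.1 e).2 k).1 hk

theorem form (gm : GM T) (a : T v χ) (v0 : v ≠ 0) (χ0 : χ ≠ 0) : ∃ φ : FD ι F, φ.σ = σ ∧ φ.ε = -1 ∧
    ∀ {w ψ}, T w ψ → ψ ≠ 0 → T w (th φ w) := by
  let N := fun x ξ => T x ξ ∧ χ ⬝ᵥ x = 1 ∧ ξ ⬝ᵥ v = -1
  have n1 : ∀ {x ξ y η}, N x ξ → N y η → σ (ξ ⬝ᵥ y) = -(η ⬝ᵥ x) := by
    rintro x ξ y η ⟨a1, a2, a3⟩ ⟨b1, b2, b3⟩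
    have e1 := (h.fix _).2 (h.pv a1 b1)
    have e2 := (h.fix _).2 (h.pv a1 (h.ts.act b1 a))
    simp only [dotProduct_add, sub_dotProduct, dotProduct_smul, smul_dotProduct, a2, a3, b2, b3,
      smul_eq_mul, map_mul, map_add, map_sub, map_neg, map_one] at e1 e2
    by_cases e : σ (ξ ⬝ᵥ y) = ξ ⬝ᵥ y
    · have := h.sym a1 (h.ts.act b1 (h.ksm a ((h.fix _).1 e))) (fun k => by
        simpa [b2, h.ts.dot a] using congrArg (χ ⬝ᵥ ·) k) (fun k => by simp [k] at a3) (by simp [a3, b2])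
      simp [a2, b3] at this
      linear_combination e + this
    · generalize ξ ⬝ᵥ y = s at *
      generalize η ⬝ᵥ x = t at *
      exact mul_left_cancel₀ (sub_ne_zero.2 e) (by linear_combination σ s * e2 - (σ s - 1) * e1)
  have nm : ∀ {w ψ}, T w ψ → χ ⬝ᵥ w ≠ 0 → ψ ⬝ᵥ v ≠ 0 → N ((χ ⬝ᵥ w)⁻¹ • w) (-(ψ ⬝ᵥ v)⁻¹ • ψ) :=
    fun {w ψ} b e e' => ⟨(h.ts.smul _).1 (TS.cg (h.ksm b (neg_mem (inv_mem (h.pv a b)))) (by
      rw [smul_smul]; congr 1; field_simp) rfl), by simp [e], by simp [e']⟩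
  have sA : Submodule.span F {x | ∃ ξ, N x ξ} = ⊤ := top_le_iff.1 ((h.span a v0 χ0).ge.trans
    (Submodule.span_le.2 fun x ⟨ξ, b, e, e'⟩ => (Submodule.smul_mem_iff _ (inv_ne_zero e)).1
      (Submodule.subset_span ⟨_, nm b e e'⟩)))
  have sB : Submodule.span F {ξ | ∃ x, N x ξ} = ⊤ := top_le_iff.1 ((h.dual.span a χ0 v0).ge.trans
    (Submodule.span_le.2 fun ξ ⟨x, b, e, e'⟩ => by
      rw [dotProduct_comm] at e e'
      exact (Submodule.smul_mem_iff _ (neg_ne_zero.2 (inv_ne_zero e))).1 (Submodule.subset_span ⟨_, nm b e' e⟩)))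
  have ac : ∀ {w ψ x ξ}, T w ψ → χ ⬝ᵥ w = 0 → ψ ⬝ᵥ v = 0 → N x ξ →
      N (x + (ψ ⬝ᵥ x) • w) (ξ - (ξ ⬝ᵥ w) • ψ) := fun b e e' n =>
    ⟨h.ts.act n.1 b, by simp [e, n.2], by simp [e', n.2]⟩
  have cs : ∀ {w ψ}, T w ψ → w ≠ 0 → ψ ≠ 0 → χ ⬝ᵥ w = 0 ∧ ψ ⬝ᵥ v = 0 ∨ χ ⬝ᵥ w ≠ 0 ∧ ψ ⬝ᵥ v ≠ 0 :=
    fun b w0 ψ0 => (em _).imp (fun e => ⟨e, h.sym a b w0 χ0 e⟩) fun e => ⟨e, h.ne b a e v0 ψ0⟩
  have inv : ∀ x, σ (σ x) = x := fun x => by
    have k : ∀ {x ξ y η}, N x ξ → N y η → ξ ⬝ᵥ y ∈ (σ.comp σ).eqLocusField (RingHom.id F) := fun a b => by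
      change σ (σ _) = _
      rw [n1 a b, map_neg, n1 b a, neg_neg]; rfl
    refine (gm ((σ.comp σ).eqLocusField (RingHom.id F)) _ _ sA sB (fun _ ⟨_, a⟩ _ ⟨_, b⟩ => k b a)
      fun w ψ b x ⟨ξ, n⟩ η ⟨y, m⟩ => ?_).ge (Subfield.mem_top x)
    by_cases e : w = 0 ∨ ψ = 0
    · rcases e with e | e <;> simp [e]
    rcases cs b (not_or.1 e).1 (not_or.1 e).2 with e | e
    · simpa [mul_comm] using sub_mem (k m (ac b e.1 e.2 n)) (k m n)
    · have k1 : χ ⬝ᵥ w * ψ ⬝ᵥ v ∈ (σ.comp σ).eqLocusField (RingHom.id F) := by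
        change σ (σ _) = _
        rw [(h.fix _).2 (h.pv a b), (h.fix _).2 (h.pv a b)]; rfl
      convert neg_mem (mul_mem k1 (mul_mem (k m (nm b e.1 e.2)) (k (nm b e.1 e.2) n))) using 1
      have := e.1
      have := e.2
      simp; field_simp
  obtain ⟨P, hP⟩ := exists_rows sA
  choose R hR using hP
  let θ := fun x => ((of R)ᵀ * ((P⁻¹).valᵀ).map σ) *ᵥ (σ ∘ x)
  have t1 : ∀ x y, θ x ⬝ᵥ y = ∑ j, σ ((x ᵥ* (P⁻¹).val) j) * R j ⬝ᵥ y := fun x y => by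
    simp only [θ]
    rw [← mulVec_mulVec, ← comp_mulVec, mulVec_transpose, mulVec_transpose, ← dotProduct_mulVec]; rfl
  have t0 : ∀ x y : ι → F, y ⬝ᵥ x = ∑ j, (x ᵥ* (P⁻¹).val) j * y ⬝ᵥ P.val j := fun x y => by
    conv_lhs => rw [show x = x ᵥ* (P⁻¹).val ᵥ* P.val by simp, dotProduct_comm, ← dotProduct_mulVec]
    exact Finset.sum_congr rfl fun j _ => congrArg _ (dotProduct_comm ..)
  have t2 : ∀ x k, θ x ⬝ᵥ P.val k = -σ (R k ⬝ᵥ x) := fun x k => by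
    rw [t1, t0 x, map_sum, ← Finset.sum_neg_distrib]
    exact Finset.sum_congr rfl fun j _ => by rw [map_mul, n1 (hR k) (hR j)]; ring
  have t3 : ∀ {x ξ}, N x ξ → θ x = ξ := fun {x ξ} n => dotProduct_eq _ _ fun y => by
    rw [t0 y, t0 y ξ]
    exact Finset.sum_congr rfl fun j _ => by rw [t2, n1 (hR j) n, neg_neg]
  have t4 : ∀ x y, θ x ⬝ᵥ y = -σ (θ y ⬝ᵥ x) := fun x y => by
    rw [t0 y, t1 y, map_sum, ← Finset.sum_neg_distrib]
    exact Finset.sum_congr rfl fun j _ => by rw [t2, map_mul, inv]; ring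
  let φ : FD ι F := ⟨σ, inv, GeneralLinearGroup.mkOfDetNeZero _ (det_ne_zero_of_nondeg (σ := σ)
    (G := (of R)ᵀ * ((P⁻¹).valᵀ).map σ) fun u u0 => by
      obtain ⟨ξ, ⟨x, n⟩, e⟩ := exists_dot_ne sB u0
      exact ⟨x, by rw [← t3 n] at e; exact e⟩), -1, by
      ext i j
      have := t4 (Pi.single i 1) (Pi.single j 1)
      rw [dotProduct_comm, dotProduct_comm (θ _)] at this
      change sf σ _ _ _ = -σ (sf σ _ _ _) at this
      rw [sf_single, sf_single] at this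
      exact this.trans (neg_one_mul _).symm⟩
  replace t3 : ∀ {x ξ}, N x ξ → th φ x = ξ := t3
  have sc : ∀ {w} {c : F}, c ≠ 0 → T (c • w) (th φ (c • w)) → T w (th φ w) := fun {w c} c0 b => by
    rw [th_smul, ← h.ts.smul, smul_smul] at b
    exact TS.cg (h.ksm b (k := (σ c * c)⁻¹) (inv_mem ((h.fix _).1 (by rw [map_mul, inv, mul_comm]))))
      (inv_smul_smul₀ (by simp [c0]) _).symm rfl
  refine ⟨φ, rfl, rfl, fun {w ψ} b ψ0 => ?_⟩
  by_cases w0 : w = 0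
  · simpa [w0] using h.ts.zero _
  rcases cs b w0 ψ0 with e | e
  · obtain ⟨x, ⟨ξ, n⟩, e1⟩ := exists_dot_ne sA ψ0
    have := t3 (ac b e.1 e.2 n)
    rw [th_add, t3 n, sub_eq_add_neg, add_right_inj, ← neg_smul] at this
    refine sc e1 ?_
    rw [this, ← h.ts.smul, smul_smul]
    simpa using h.ksm b (neg_mem (h.pv n.1 b))
  · exact sc (inv_ne_zero e.1) (t3 (nm b e.1 e.2) ▸ (nm b e.1 e.2).1)

variable {φ : FD ι F} (hσ : φ.σ = σ) (hε : φ.ε = -1) (hΞ : ∀ {w ψ}, T w ψ → ψ ≠ 0 → T w (th φ w))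
include hσ hε

theorem sw (x y : ι → F) : σ (φ.f x y) = -φ.f y x := by rw [φ.f_swap y, hε, hσ]; ring

theorem nr (e : φ.f d d ≠ 0) (z : ι → F) : ∃ k ∈ K, φ.f (z + k • d) (z + k • d) ≠ 0 := by
  by_contra! n
  obtain ⟨k, hk, k0, k1⟩ := h.big
  have a0 := n 0 (zero_mem K)
  have a1 := n 1 (one_mem K)
  have a2 := n k hk
  simp only [φ.f_add_left, φ.f_add_right, φ.f_smul_left, φ.f_smul_right, hσ, (h.fix k).2 hk, map_one,
    map_zero] at a0 a1 a2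
  exact mul_ne_zero (mul_ne_zero k0 (sub_ne_zero.2 k1)) e (by linear_combination a2 - k * a1 + (k - 1) * a0)

include hΞ

theorem xs (a : T x (th φ x)) (c : F) : T (c • x) (th φ (c • x)) := by
  rw [th_smul, ← h.ts.smul, smul_smul]
  exact h.ksm a ((h.fix _).1 (by rw [← hσ, map_mul, φ.invol, mul_comm]))

theorem xa (a : T x (th φ x)) (b : T y (th φ y)) {k : F} (hk : k ∈ K) :
    T (x + (k * φ.f x y) • y) (th φ (x + (k * φ.f x y) • y)) :=
  TS.cg (h.ts.act a (h.ksm b hk)) (by rw [th_dot, smul_smul, mul_comm]) (by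
    simp [th_add, th_smul, th_dot, hσ, (h.fix k).2 hk, h.sw hσ hε, φ.f_smul_left, sub_eq_add_neg])

theorem iso (hι : Odd (Fintype.card ι)) (a : T e (th φ e)) (e0 : e ≠ 0) :
    σ ≠ RingHom.id F ∧ ∀ z, φ.f z z = 0 → φ.f z e ≠ 0 → T z (th φ z) := by
  have sw := h.sw hσ hε
  have ee : φ.f e e = 0 := (th_dot ..).symm.trans (h.ts.dot a)
  let G := fun x => φ.f x e = 1 ∧ ∃ τ : F, T (x + τ • e) (th φ (x + τ • e))
  have f1 : ∀ {x}, φ.f x e = 1 → φ.f e x = -1 := fun k => by rw [← neg_eq_iff_eq_neg, ← sw, k, map_one]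
  have g1 : ∀ {x}, G x → φ.f x x = 0 → T x (th φ x) := by
    rintro x ⟨x1, τ, b⟩ x2
    have := (th_dot ..).symm.trans (h.ts.dot b)
    simp only [φ.f_add_left, φ.f_add_right, φ.f_smul_left, φ.f_smul_right, hσ, x1, x2, f1 x1, ee] at this
    simpa [φ.f_add_left, φ.f_smul_left, x1, ee] using h.xa hσ hε hΞ b a (neg_mem ((h.fix τ).1 (by
      linear_combination this)))
  have g0 : ∀ {x y}, T x (th φ x) → T y (th φ y) → φ.f x e = 1 → φ.f y e = 1 → φ.f y x ∉ K → ∀ t, t ∉ K →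
      ∃ τ : F, T (y + t • (x - y) + τ • e) (th φ (y + t • (x - y) + τ • e)) := by
    intro x y b c x1 y1 n t ht
    have t1 : 1 - t ≠ 0 := fun k => ht (sub_eq_zero.1 k ▸ one_mem K)
    obtain ⟨s, hs⟩ : ∃ s, s * (1 - t) = t := ⟨_, div_mul_cancel₀ _ t1⟩
    have s1 : s - σ s ≠ 0 := fun k => ht (by
      have := (h.fix s).1 (sub_eq_zero.1 k).symm
      have e1 : 1 + s ≠ 0 := fun k => by
        simpa using (by linear_combination (1 - t) * k - hs : (1 : F) = 0)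
      rw [show t = s / (1 + s) by field_simp; linear_combination -hs]
      exact div_mem this (add_mem (one_mem K) this))
    generalize hγ : φ.f y x = γ at n
    have n1 : γ - σ γ ≠ 0 := fun k => n ((h.fix γ).1 (sub_eq_zero.1 k).symm)
    have i : ∀ x, σ (σ x) = x := hσ ▸ φ.invol
    have c1 : (s - σ s) / (γ - σ γ) ∈ K := (h.fix _).1 (by
      rw [map_div₀, map_sub, map_sub, i, i, ← neg_sub, ← neg_sub γ, neg_div_neg_eq])
    have c2 : γ - s / ((s - σ s) / (γ - σ γ)) ∈ K := (h.fix _).1 (by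
      rw [map_sub, map_div₀, (h.fix _).2 c1]; field_simp; ring)
    have := h.xs hσ hε hΞ (h.xa hσ hε hΞ (h.xa hσ hε hΞ c a c2) b c1) (1 - t)
    refine ⟨(1 - t) * (γ - s / ((s - σ s) / (γ - σ γ))), ?_⟩
    convert this using 1 <;> congr 1 <;>
    · rw [φ.f_add_left, φ.f_smul_left, hγ, y1, f1 x1, show (s - σ s) / (γ - σ γ) * (γ + (γ - s /
        ((s - σ s) / (γ - σ γ))) * 1 * -1) = s by field_simp; ring]
      match_scalars
      exacts [by ring, by linear_combination -hs, by ring]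
  have g2 : ∀ {x y}, G x → G y → φ.f (x - y) (x - y) ≠ 0 → (∃ t, t ∉ K) ∧
      ∀ t, t ∉ K → G (y + t • (x - y)) := by
    rintro x y ⟨x1, τ, b⟩ ⟨y1, τ', c⟩ n
    have n1 : φ.f (y + τ' • e) (x + τ • e) ∉ K := fun k => n (by
      have d1 := (th_dot ..).symm.trans (h.ts.dot b)
      have d2 := (th_dot ..).symm.trans (h.ts.dot c)
      have d3 := ((h.fix _).2 k).symm.trans (sw ..)
      simp only [φ.f_add_left, φ.f_add_right, φ.f_smul_left, φ.f_smul_right, φ.f_sub_left, φ.f_sub_right,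
        x1, y1, f1 x1, f1 y1, ee] at d1 d2 d3 ⊢
      linear_combination d1 + d2 - d3)
    refine ⟨⟨_, n1⟩, fun t ht => ⟨by simp [φ.f_add_left, φ.f_smul_left, φ.f_sub_left, x1, y1], ?_⟩⟩
    obtain ⟨s, hs⟩ := g0 b c (by simp [φ.f_add_left, φ.f_smul_left, x1, ee])
      (by simp [φ.f_add_left, φ.f_smul_left, y1, ee]) n1 t ht
    exact ⟨τ' + t * (τ - τ') + s, by rwa [show y + t • (x - y) + (τ' + t * (τ - τ') + s) • e =
      y + τ' • e + t • (x + τ • e - (y + τ' • e)) + s • e by module]⟩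
  have ns : ∀ {d} {t : F}, t ≠ 0 → φ.f d d ≠ 0 → φ.f (t • d) (t • d) ≠ 0 := fun t0 n => by
    simp [φ.f_smul_left, φ.f_smul_right, t0, n]
  have g3 : ∀ {x y}, G x → G y → φ.f (x - y) (x - y) ≠ 0 → ∀ t : F, G (y + t • (x - y)) := by
    intro x y b c n t
    obtain ⟨⟨s, hs⟩, k⟩ := g2 b c n
    have s0 : s ≠ 0 := fun e => hs (e ▸ zero_mem K)
    by_cases ht : t ∈ K
    swap
    · exact k t ht
    by_cases t0 : t = 0
    · simpa [t0]
    simpa [smul_smul, s0] using (g2 (k s hs) c (by simpa using ns s0 n)).2 (t / s) fun e =>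
      hs (by convert div_mem ht e using 1; field_simp)
  have g4 : ∀ {x d y}, G x → G (x + d) → φ.f d d ≠ 0 → G y → ∀ t : F, G (y + t • d) := by
    intro x d y b c n g t
    by_cases t0 : t = 0
    · simpa [t0]
    obtain ⟨⟨ω, hω⟩, -⟩ := g2 c b (by simpa)
    have l : ∀ s : F, G (x + s • d) := by simpa using g3 c b (by simpa)
    obtain ⟨k, hk, k0, k1⟩ := h.big
    have r : ∀ s : F, ∃ k ∈ K, φ.f (y - (x + (s + k) • d)) (y - (x + (s + k) • d)) ≠ 0 := fun s => by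
      obtain ⟨k, hk, e⟩ := h.nr hσ hε n (y - (x + s • d))
      exact ⟨-k, neg_mem hk, by convert e using 2 <;> module⟩
    obtain ⟨s, s1, s2, s3⟩ : ∃ s s' : F, φ.f (y - (x + s • d)) (y - (x + s • d)) ≠ 0 ∧
        φ.f (y - (x + s' • d)) (y - (x + s' • d)) ≠ 0 ∧ s - s' ≠ 0 ∧ s - s' - t ≠ 0 := by
      obtain ⟨a0, m0, n0⟩ := r 0
      obtain ⟨a1, m1, n1⟩ := r ω
      obtain ⟨a2, m2, n2⟩ := r (k * ω)
      by_cases e : 0 + a0 - (ω + a1) - t = 0
      · exact ⟨_, _, n0, n2, fun e' => hω (by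
          rw [show ω = (a0 - a2) / k by field_simp; linear_combination -e']
          exact div_mem (sub_mem m0 m2) hk), fun e' => hω (by
          rw [show ω = (a1 - a2) / (k - 1) by field_simp [sub_ne_zero.2 k1]; linear_combination e - e']
          exact div_mem (sub_mem m1 m2) (sub_mem hk (one_mem K)))⟩
      · exact ⟨_, _, n0, n1, fun e' => hω (by
          rw [show ω = a0 - a1 by linear_combination -e']; exact sub_mem m0 m1), e⟩
    obtain ⟨s3, s4, s5⟩ := s3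
    have := g3 (g3 g (l s) s2 ((s - s1 - t) / (s - s1))) (l (s1 + t)) (by
      convert ns (div_ne_zero s5 s4) s3 using 2 <;> match_scalars <;> field_simp <;> ring)
      ((s - s1) / (s - s1 - t))
    convert this using 1
    match_scalars <;> field_simp <;> ring
  have sG : Submodule.span F {x | T x (th φ x) ∧ φ.f x e = 1} = ⊤ :=
    top_le_iff.1 ((h.span a e0 (th_ne φ e0)).ge.trans (Submodule.span_le.2 fun x ⟨ξ, b, e1, e2⟩ =>
      (Submodule.smul_mem_iff _ (inv_ne_zero e1)).1 (Submodule.subset_span ⟨h.xs hσ hε hΞ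
        (hΞ b fun k => e2 (by simp [k])) _, by rw [φ.f_smul_left, ← th_dot, inv_mul_cancel₀ e1]⟩)))
  have gG : ∀ {x}, T x (th φ x) ∧ φ.f x e = 1 → G x := fun b => ⟨b.2, 0, by simpa using b.1⟩
  obtain ⟨x, y, b, c, n⟩ : ∃ x y, G x ∧ G y ∧ φ.f (x - y) (x - y) ≠ 0 := by
    by_contra! n
    obtain ⟨P, hP⟩ := exists_rows sG
    have d : ∀ i, φ.f (P.val i) (P.val i) = 0 := fun i => (th_dot ..).symm.trans (h.ts.dot (hP i).1)
    have e1 : ∀ i j, (P.val * φ.G.val * (P.valᵀ).map φ.σ) i j = φ.f (P.val i) (P.val j) := fun i j => by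
      simpa [FD.f, row] using ((sf_mulVec P.valᵀ P.valᵀ _ _).trans (sf_single i j)).symm
    refine Nat.not_even_iff_odd.2 hι (even_card_of_alt (G := P.val * φ.G.val * (P.valᵀ).map φ.σ) ?_
      (fun i => (e1 i i).trans (d i)) ?_)
    · ext i j
      have := n _ _ (gG (hP i)) (gG (hP j))
      simp only [φ.f_sub_left, φ.f_sub_right, d] at this
      rw [transpose_apply, Matrix.neg_apply, e1, e1]
      linear_combination -this
    · rw [det_mul, det_mul, ← RingHom.mapMatrix_apply, ← RingHom.map_det, det_transpose]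
      simp [P.det_ne_zero, φ.G.det_ne_zero]
  let D : Submodule F (ι → F) :=
    { carrier := {d | φ.f d e = 0 ∧ ∀ y, G y → ∀ t : F, G (y + t • d)}
      add_mem' := fun a b => ⟨by simp [φ.f_add_left, a.1, b.1], fun y g t => by
        simpa [add_assoc] using b.2 _ (a.2 y g t) t⟩
      zero_mem' := ⟨by simp, by simp⟩
      smul_mem' := fun c d a => ⟨by simp [φ.f_smul_left, a.1], fun y g t => by
        simpa [smul_smul] using a.2 y g (t * c)⟩ }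
  have m : ∀ {x y}, G x → G y → φ.f (x - y) (x - y) ≠ 0 → x - y ∈ D := fun b c n =>
    ⟨by simp [φ.f_sub_left, b.1, c.1], fun _ => g4 c (by simpa) n⟩
  have m' : ∀ {z}, G z → z - x ∈ D := fun {z} g => by
    obtain ⟨k, -, e⟩ := h.nr hσ hε n (z - x)
    refine (D.add_mem_iff_left (D.smul_mem k (m b c n))).1 ?_
    convert m ((m b c n).2 z g k) b (by convert e using 2 <;> abel) using 1
    abel
  have m'' : ∀ z, z - φ.f z e • x ∈ D := fun z => by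
    have := sG.ge (Submodule.mem_top (x := z))
    induction this using Submodule.span_induction with
    | mem _ a => simpa [a.2] using m' (gG a)
    | zero => simp
    | add _ _ _ _ a b => convert add_mem a b using 1; rw [φ.f_add_left]; module
    | smul c _ _ a => convert D.smul_mem c a using 1; rw [φ.f_smul_left]; module
  obtain ⟨⟨ω, hω⟩, -⟩ := g2 b c n
  refine ⟨fun k => hω ((h.fix ω).1 (by simp [k])), fun z z0 z1 => ?_⟩
  have z2 : φ.f ((φ.f z e)⁻¹ • z) e = 1 := by simp [φ.f_smul_left, z1]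
  simpa [smul_smul, z1] using h.xs hσ hε hΞ (g1 (x := (φ.f z e)⁻¹ • z) (by
    simpa [z2] using (m'' ((φ.f z e)⁻¹ • z)).2 x b 1) (by simp [φ.f_smul_left, φ.f_smul_right, z0])) (φ.f z e)

end SK

theorem TS.main [Finite F] (h : TS T) (gm : GM T) (cm : CM T) (hι : 3 < Fintype.card ι)
    (ho : Odd (Fintype.card ι)) (a : T v χ) (v0 : v ≠ 0) (χ0 : χ ≠ 0) :
    (∀ v φ, φ ⬝ᵥ v = 0 → T v φ) ∨
    (∃ φ : FD ι F, φ.σ ≠ RingHom.id F ∧ φ.ε = -1 ∧ (∃ k, φ.σ k = k ∧ k ≠ 0 ∧ k ≠ 1) ∧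
      (∀ w ψ, T w ψ → w ≠ 0 → ψ ≠ 0 → φ.f w w = 0 ∧ ∃ k, φ.σ k = k ∧ ψ = k • th φ w) ∧
      ∀ z k, φ.f z z = 0 → φ.σ k = k → T (k • z) (th φ z)) ∨
    (2 : F) = 0 ∧ (∀ v φ w ψ, T v φ → T w ψ → w ≠ 0 → φ ≠ 0 → φ ⬝ᵥ w = 0 → ψ ⬝ᵥ v = 0) ∧
      ∀ v φ, T v φ → v ≠ 0 → φ ≠ 0 → Sh T v φ := by
  by_cases s : ∀ v φ w ψ, T v φ → T w ψ → w ≠ 0 → φ ≠ 0 → φ ⬝ᵥ w = 0 → ψ ⬝ᵥ v = 0
  swap
  · push Not at s
    obtain ⟨v, φ, w, ψ, a, b, w0, φ0, e, e'⟩ := s
    exact .inl fun _ _ => h.all gm (h.lin hι a b e e' w0 φ0)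
  by_cases l : ∀ v φ, T v φ → v ≠ 0 → φ ≠ 0 → Sh T v φ
  · exact .inr (.inr ⟨h.two a (l _ _ a v0 χ0), s, l⟩)
  push Not at l
  obtain ⟨v, χ, a, v0, χ0, l⟩ := l
  have y : SY T := ⟨h, s _ _ _ _, h.conn (Q := fun v φ => ¬ Sh T v φ) a v0 l χ0 fun a b φ0 u0 e l k =>
    l (h.sh_of a b (fun k => e (s _ _ _ _ a b u0 φ0 k)) e k)⟩
  obtain ⟨K, k1, k2, k3⟩ := y.star cm (by omega) a v0 χ0
  obtain ⟨σ, hσ⟩ := exists_frob K
  have k : SK T K σ := ⟨y, hσ, k1, k2, k3⟩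
  obtain ⟨φ, rfl, hε, hΞ⟩ := k.form gm a v0 χ0
  refine .inr (.inl ⟨φ, (k.iso rfl hε hΞ ho (hΞ a χ0) v0).1, hε, by simpa only [hσ] using k1,
    fun w ψ b w0 ψ0 => ?_, fun z c z0 hc => k.ksm ?_ ((hσ c).1 hc)⟩)
  · have c := hΞ b ψ0
    obtain ⟨d, rfl⟩ := y.dual.uniq c b (th_ne φ w0) w0
    exact ⟨(th_dot ..).symm.trans (h.dot c), d, (hσ d).2 ((k2 c w0 (th_ne φ w0) d).2 ((h.smul d).2 b)), rfl⟩
  · by_cases e : z = 0
    · simpa [e] using h.zero _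
    obtain ⟨x, ⟨ξ, b, e1, e2⟩, e3⟩ := exists_dot_ne (y.span a v0 χ0) (th_ne φ e)
    exact (k.iso rfl hε hΞ ho (hΞ b fun k => e2 (by simp [k])) fun k => e1 (by simp [k])).2 z z0 fun k =>
      e3 ((th_dot ..).trans (φ.f_eq_zero_comm k))

end CF.D5T
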