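/-
Maximal subgroups of `SL₅(q)` and `SU₅(q)`: monomial groups and orthonormal frames.
-/
import Cfsg.Agent.MH.Mon

set_option autoImplicit false

namespace CF.D5Z

open Matrix Cfsg Cfsg.Geo CF.MaxSub Subgroup Equiv
open scoped MatrixGroups

variable {F : Type*} [Field F]

section
variable {G G' : Type*} [Group G] [Group G']

variable (F) in
/-- The elements killed by all characters of order dividing `5`. -/
def O5 (M : Subgroup G) : Subgroup G where
  carrier := {g | ∃ h : g ∈ M, ∀ χ : M →* Fˣ, (∀ x, χ x ^ 5 = 1) → χ ⟨g, h⟩ = 1}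
  mul_mem' := fun ⟨h, a⟩ ⟨k, b⟩ => ⟨mul_mem h k, fun χ e =>
    (map_mul χ ⟨_, h⟩ ⟨_, k⟩).trans (by rw [a χ e, b χ e, mul_one])⟩
  one_mem' := ⟨one_mem _, fun χ _ => map_one χ⟩
  inv_mem' := fun ⟨h, a⟩ => ⟨inv_mem h, fun χ e => (map_inv χ ⟨_, h⟩).trans (by rw [a χ e, inv_one])⟩

variable {M : Subgroup G} {g t : G}

theorem O5.invol (hg : g ∈ M) (e : g * g = 1) : g ∈ O5 F M := ⟨hg, fun χ h => by
  have h2 : χ ⟨g, hg⟩ ^ 2 = 1 := by
    rw [← map_pow, show (⟨g, hg⟩ : M) ^ 2 = 1 from Subtype.ext ((sq g).trans e), map_one]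
  simpa using pow_gcd_eq_one.2 ⟨h2, h ⟨g, hg⟩⟩⟩

theorem O5.fifth (hg : g ∈ M) : g ^ 5 ∈ O5 F M :=
  ⟨pow_mem hg 5, fun χ h => (map_pow χ ⟨g, hg⟩ 5).trans (h _)⟩

theorem O5.comm (hg : g ∈ M) (ht : t ∈ M) : t * g * t⁻¹ * g⁻¹ ∈ O5 F M :=
  ⟨mul_mem (mul_mem (mul_mem ht hg) (inv_mem ht)) (inv_mem hg), fun χ _ =>
    show χ (⟨t, ht⟩ * ⟨g, hg⟩ * ⟨t, ht⟩⁻¹ * ⟨g, hg⟩⁻¹) = 1 by simp [-MulMemClass.mk_mul_mk]⟩

theorem O5.real (hg : g ∈ M) (ht : t ∈ M) (e : t * g * t⁻¹ = g⁻¹) : g ∈ O5 F M := by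
  have := mul_mem (O5.fifth (F := F) hg) (pow_mem (O5.comm hg ht) 2)
  rwa [e, show g ^ 5 * (g⁻¹ * g⁻¹) ^ 2 = g by group] at this

end

/-- Monomial matrices. -/
def mon (s : Perm (Fin 5)) (d : Fin 5 → Fˣ) : GL (Fin 5) F where
  val := of fun i j => if i = s j then d j else 0
  inv := of fun i j => if j = s i then (d i)⁻¹ else 0
  val_inv := by
    ext i j
    obtain ⟨i, rfl⟩ := s.surjective i
    obtain ⟨j, rfl⟩ := s.surjective j
    simp +contextual [mul_apply, one_apply, eq_comm]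
  inv_val := by
    ext i j
    simp +contextual [mul_apply, one_apply, eq_comm]

variable {s s' : Perm (Fin 5)} {d d' : Fin 5 → Fˣ}

theorem mon_apply (i j : Fin 5) : (mon s d).val i j = if i = s j then (d j : F) else 0 := rfl

theorem mon_mul : mon s d * mon s' d' = mon (s * s') fun j => d (s' j) * d' j :=
  Units.ext (Matrix.ext fun i j => by simp [mul_apply, mon_apply]; congr)

theorem mon_one : mon 1 (1 : Fin 5 → Fˣ) = 1 := Units.ext (Matrix.ext fun i j => by simp [mon_apply, one_apply]; congr)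

theorem mon_inv : (mon s d)⁻¹ = mon s⁻¹ fun j => (d (s⁻¹ j))⁻¹ :=
  inv_eq_of_mul_eq_one_right (by simp [mon_mul, ← mon_one]; rfl)

theorem mon_single (j : Fin 5) : (mon s d).val *ᵥ Pi.single j 1 = (d j : F) • Pi.single (s j) 1 := by
  ext i; simp [mon_apply, Pi.single_apply]

theorem mon_inj (h : mon s d = mon s' d') : s = s' ∧ d = d' := by
  have k : ∀ j, (mon s d).val (s j) j = (mon s' d').val (s j) j := fun j => by rw [h]
  simp only [mon_apply, if_true] at k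
  have : s = s' := Equiv.ext fun j => by
    by_contra e
    simpa [e] using k j
  exact ⟨this, funext fun j => Units.ext (by simpa [this] using k j)⟩

theorem coe_mon_one : (mon 1 d).val = diagonal fun i => (d i : F) := Matrix.ext fun i j => by
  by_cases e : i = j <;> simp [mon_apply, e]

/-- The sign as a unit. -/
def sg (F : Type*) [Field F] : Perm (Fin 5) →* Fˣ := (Units.map (Int.castRingHom F).toMonoidHom).comp Perm.sign

theorem sg_mem {μ : Subgroup Fˣ} (h : -1 ∈ μ) (s : Perm (Fin 5)) : sg F s ∈ μ := by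
  rcases Int.units_eq_one_or (Perm.sign s) with e | e <;> simp [sg, e, h, one_mem]

theorem sg_sq (s : Perm (Fin 5)) : sg F s * sg F s = 1 := by
  rw [sg, MonoidHom.comp_apply, ← map_mul, Int.units_mul_self, map_one]

theorem sg_one (h : Perm.sign s = 1) : sg F s = 1 := by simp [sg, h]

theorem mon_sl : mon s d ∈ specialLinear (Fin 5) F ↔ sg F s * ∏ i, d i = 1 := by
  have : (mon s d).val = s⁻¹.permMatrix F * diagonal fun j => (d j : F) := Matrix.ext fun i j => by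
    simp [mon_apply, PEquiv.toMatrix_apply, Equiv.symm_apply_eq]
  rw [mem_specialLinear, this, det_mul, det_permutation, det_diagonal, ← Units.val_inj]
  simp [sg]

/-- The monomial group. -/
def Mon (μ : Subgroup Fˣ) : Subgroup (GL (Fin 5) F) := specialLinear (Fin 5) F ⊓
  { carrier := {g | ∃ s d, (∀ i, d i ∈ μ) ∧ g = mon s d}
    mul_mem' := by
      rintro _ _ ⟨s, d, h, rfl⟩ ⟨s', d', h', rfl⟩
      exact ⟨_, _, fun _ => mul_mem (h _) (h' _), mon_mul⟩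
    one_mem' := ⟨1, 1, fun _ => one_mem _, mon_one.symm⟩
    inv_mem' := by
      rintro _ ⟨s, d, h, rfl⟩
      exact ⟨_, _, fun _ => inv_mem (h _), mon_inv⟩ }

variable {μ : Subgroup Fˣ} {M : Subgroup (GL (Fin 5) F)}

theorem mon_mem (h : ∀ i, d i ∈ μ) (e : sg F s * ∏ i, d i = 1) : mon s d ∈ Mon μ :=
  ⟨mon_sl.2 e, s, d, h, rfl⟩

theorem perm_mem (h : Perm.sign s = 1) : mon s 1 ∈ Mon μ :=
  mon_mem (fun _ => one_mem _) (by simp [sg_one h])

theorem card_Mon (h : -1 ∈ μ) : Nat.card (Mon μ) = 120 * Nat.card μ ^ 4 := by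
  refine (Nat.card_eq_of_bijective (fun x : Perm (Fin 5) × (Fin 4 → μ) => (⟨mon x.1
    (Fin.cons (sg F x.1 * (∏ i, (x.2 i : Fˣ))⁻¹) fun i => x.2 i), mon_mem (fun i => Fin.cases
      (mul_mem (sg_mem h _) (inv_mem (prod_mem fun i _ => (x.2 i).2))) (fun i => (x.2 i).2) i) (by
        rw [Fin.prod_univ_succ, ← sg_sq x.1]; simp)⟩ : Mon μ)) ⟨?_, ?_⟩).symm.trans ?_
  · rintro ⟨s, a⟩ ⟨s', a'⟩ e
    obtain ⟨e1, e2⟩ := mon_inj (congrArg Subtype.val e)
    exact Prod.ext e1 (funext fun i => Subtype.ext (congrFun e2 i.succ))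
  · rintro ⟨_, e, s, d, h, rfl⟩
    refine ⟨(s, fun i => ⟨_, h i.succ⟩), Subtype.ext (congrArg (mon s) (funext fun i => ?_))⟩
    have := mon_sl.1 e
    refine Fin.cases ?_ (fun i => rfl) i
    rw [Fin.prod_univ_succ, ← sg_sq s, mul_right_inj] at this
    simp [← this]
  · simp [Fintype.card_perm, Nat.factorial, Nat.card_fun]

theorem Mon_mono {ν : Subgroup Fˣ} (h : μ ≤ ν) : Mon μ ≤ Mon ν :=
  fun _ ⟨a, s, d, b, c⟩ => ⟨a, s, d, fun i => h (b i), c⟩

section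
variable {A : Subalgebra F (Matrix (Fin 5) (Fin 5) F)}

theorem single_mem (h : ∀ i j, i ≠ j → ∃ d : Fin 5 → F, diagonal d ∈ A ∧ d i ≠ d j) (i : Fin 5) :
    single i i 1 ∈ A := by
  let S := A.comap (diagonalAlgHom (n := Fin 5) (α := F) F)
  have : ∀ j, ∃ y ∈ S, y i = 1 ∧ (i ≠ j → y j = 0) := fun j => by
    by_cases e : i = j
    · exact ⟨1, one_mem _, rfl, fun k => (k e).elim⟩
    obtain ⟨d, a, b⟩ := h i j e
    exact ⟨(d i - d j)⁻¹ • (d - d j • 1), S.smul_mem (sub_mem (show d ∈ S from a) (S.smul_mem (one_mem _) _)) _,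
      by simp [sub_ne_zero.2 b], fun _ => by simp⟩
  choose y a b c using this
  convert (show diagonal _ ∈ A from S.prod_mem (t := Finset.univ) fun j _ => a j)
  ext k l
  by_cases e : k = l
  · subst e
    by_cases e : i = k
    · simp [← e, b]
    · simp [e, Finset.prod_eq_zero (f := fun j => y j k) (Finset.mem_univ k) (c k e)]
  · rw [diagonal_apply_ne _ e, single_apply_of_ne]
    rintro ⟨rfl, rfl⟩
    exact e rfl

theorem single_of (h : ∀ i, single i i 1 ∈ A) (k : (mon s d).val ∈ A) (j : Fin 5) : single (s j) j 1 ∈ A := by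
  convert A.smul_mem (mul_mem k (h j)) (d j : F)⁻¹
  ext a b
  by_cases e : j = b
  · subst e
    by_cases e : a = s j <;> simp [mon_apply, e, single_apply, eq_comm]
  · simp [e, Ne.symm e]

theorem span_top (h : ∀ i, single i i 1 ∈ A) (k : ∀ i j, ∃ s d, s j = i ∧ (mon s d).val ∈ A) : A = ⊤ :=
  eq_top_iff.2 fun x _ => by
    rw [matrix_eq_sum_single x]
    refine sum_mem fun i _ => sum_mem fun j _ => ?_
    obtain ⟨s, d, rfl, e⟩ := k i j
    simpa using A.smul_mem (single_of h e j) (x (s j) j)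

end

theorem single_tor (h : ∀ d, (∀ i, d i ∈ μ) → ∏ i, d i = 1 → mon 1 d ∈ M) {c : Fˣ} (hc : c ∈ μ) (c1 : c ≠ 1) :
    ∀ i, single i i 1 ∈ spanAlg M := single_mem fun i j e => by
  obtain ⟨k, a, b⟩ : ∃ k, k ≠ i ∧ k ≠ j := by revert i j; decide
  have := coe_mem_spanAlg (h (Pi.mulSingle j c * Pi.mulSingle k c⁻¹) (fun l => by
    simp only [Pi.mul_apply, Pi.mulSingle_apply]
    split_ifs <;> simp [hc, one_mem]) (by simp [Finset.prod_mul_distrib]))
  exact ⟨_, coe_mon_one (F := F) ▸ this, by simpa [e, a.symm, b.symm, eq_comm] using c1⟩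

theorem span_Mon {c : Fˣ} (hc : c ∈ μ) (c1 : c ≠ 1) : spanAlg (Mon μ) = ⊤ :=
  span_top (single_tor (fun _ a b => mon_mem a (by simp [b])) hc c1) fun i j => by
    obtain ⟨s, a, b⟩ : ∃ s : Perm (Fin 5), Perm.sign s = 1 ∧ s j = i :=
      ⟨finRotate 5 ^ (i - j).val, by revert i j; decide⟩
    exact ⟨s, 1, b, coe_mem_spanAlg (perm_mem a)⟩

theorem irr_Mon [Finite F] (h : Mon μ ≤ M) (c : 1 < Nat.card μ) : Irr M := by
  obtain ⟨⟨c, hc⟩, e⟩ := ne_bot_iff_exists_ne_one.1 ((one_lt_card_iff_ne_bot _).1 c)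
  exact (irr_of_spanAlg_eq_top (span_Mon hc fun h => e (Subtype.ext h))).mono h

/-- No involutions. -/
def NI (M : Subgroup (GL (Fin 5) F)) : Prop := ∀ g ∈ M, g * g = 1 → g = 1

theorem not_NI (h : mon s 1 ∈ M) (a : s * s = 1) (b : s ≠ 1) : ¬ NI M := fun e =>
  b (mon_inj (F := F) ((e _ h (by simp [mon_mul, a, ← mon_one]; rfl)).trans mon_one.symm)).1

/-- The monomial matrices fixing the first plane. -/
def Xc (μ : Subgroup Fˣ) (M : Subgroup (GL (Fin 5) F)) : Prop :=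
  ∀ s d, s 0 < 2 → s 1 < 2 → mon s d ∈ Mon μ → mon s d ∈ M

theorem Xc.of (h : Mon μ ≤ M) : Xc μ M := fun _ _ _ _ e => h e

theorem Xc.not_NI (h : Xc μ M) : ¬ NI M :=
  D5Z.not_NI (h (swap 0 1 * swap 3 4) 1 (by decide) (by decide) (perm_mem (by decide))) (by decide) (by decide)

theorem Xc.tr (h : Xc μ M) {c : Fˣ} (hc : c ∈ μ) :
    ∃ g ∈ O5 F M, g.val.trace = c ∧ g⁻¹.val.trace = (c : F)⁻¹ := by
  refine ⟨_, mul_mem (O5.invol (h (swap 0 1 * swap 3 4) 1 (by decide) (by decide) (perm_mem (by decide))) ?_)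
    (O5.real (h 1 ![1, 1, c, c⁻¹, 1] (by decide) (by decide) (mon_mem (by
      simp [Fin.forall_fin_succ, one_mem, hc]) (by simp [Fin.prod_univ_five])))
      (h (swap 0 1 * swap 2 3) 1 (by decide) (by decide) (perm_mem (by decide))) ?_), ?_⟩
  · rw [mon_mul, ← mon_one]
    congr 1
    · decide
    · funext i; simp
  · simp only [mon_mul, mon_inv]
    congr 1
    · decide
    · funext i; fin_cases i <;> simp [swap_apply_def]
  · rw [mon_mul, mon_inv]
    simp [trace, Fin.sum_univ_five, mon_apply, swap_apply_def]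

open MH (nrm mem_nrm neg_mem_nrm)

variable {φ ψ : FD (Fin 5) F}

theorem mon_isom (h : φ.G = 1) : mon s d ∈ φ.isom ↔ ∀ i, d i ∈ nrm φ.σ := by
  have : (mon s d).valᵀ * (mon s d).val.map φ.σ = diagonal fun i => d i * φ.σ (d i) := by
    ext i j
    by_cases e : i = j <;> simp [mul_apply, mon_apply, apply_ite φ.σ, e, diagonal, eq_comm]
  rw [φ.mem_isom_iff_gram, h, Units.val_one, mul_one, this, ← diagonal_one, diagonal_eq_diagonal_iff]
  simp only [mem_nrm]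

theorem Mon_le_su (h : φ.G = 1) : Mon (nrm φ.σ) ≤ φ.su := by
  rintro _ ⟨e, s, d, hd, rfl⟩
  exact ⟨(mon_isom h).2 hd, e⟩

theorem card_nrm [Fintype F] {q : ℕ} (h : φ.IsU q) : Nat.card (nrm φ.σ) = q + 1 :=
  Geom.card_normOne h.card h.σ

theorem exists_cols {b : Fin 5 → Fin 5 → F} {c : F} (hc : c ≠ 0)
    (h : ∀ i j, φ.f (b i) (b j) = (c • 1 : Matrix _ _ F) i j) : ∃ P : GL (Fin 5) F,
      (∀ i, P.val *ᵥ Pi.single i 1 = b i) ∧ P.valᵀ * φ.G * P.val.map φ.σ = c • 1 := by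
  have e : ∀ i, (of b)ᵀ *ᵥ Pi.single i 1 = b i := fun i => by ext; simp
  have k : (of b)ᵀᵀ * φ.G * (of b)ᵀ.map φ.σ = c • 1 := Matrix.ext fun i j => by
    rw [← h, ← e i, ← e j, FD.f, sf_mulVec, sf_single]
  exact ⟨.mkOfDetNeZero _ fun e => by
    simpa [hc, (det_transpose _).symm.trans e] using (congrArg det k).symm, e, k⟩

theorem frame_u [Fintype F] {q : ℕ} (h : φ.IsU q) :
    ∃ P : GL (Fin 5) F, P.valᵀ * φ.G * P.val.map φ.σ = (1 : F) • 1 := by
  obtain ⟨b, h1, h2⟩ := h.exists_onb (n := 5) (by simp)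
  obtain ⟨P, -, k⟩ := exists_cols (φ := φ) (b := b) one_ne_zero fun i j => by
    by_cases e : i = j <;> simp [e, h2, h1.orth]
  exact ⟨P, k⟩

theorem frame_o [Finite F] (hσ : φ.σ = RingHom.id F) (hε : φ.ε = 1) (h2 : (2 : F) ≠ 0) :
    ∃ (P : GL (Fin 5) F) (c : F), c ≠ 0 ∧ P.valᵀ * φ.G * P.val.map φ.σ = c • 1 := by
  have e : ∀ A : Matrix (Fin 5) (Fin 5) F, Geom.gram (toBilin' A) (Pi.basisFun F _) = A := fun A => by
    ext; simp
  have s : ∀ A : Matrix (Fin 5) (Fin 5) F, Aᵀ = A → (toBilin' A).IsSymm := fun A h => ⟨fun x y => by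
    simp only [toBilin'_apply', RingHom.id_apply]
    rw [dotProduct_mulVec, ← mulVec_transpose, h, dotProduct_comm]⟩
  have h0 := φ.G.det_ne_zero
  obtain ⟨g, hg⟩ := Geom.exists_equiv_of_isSquare_disc h2 (s (φ.G.val.det • 1) (by simp))
    (Geom.nondegenerate_of_det_gram (Pi.basisFun F _) (by simp [-map_smul, e, h0])) (s φ.G (by simp [φ.herm, hσ, hε]))
    (Geom.nondegenerate_of_det_gram (Pi.basisFun F _) (by simp [e, h0])) rfl (Pi.basisFun F _)
    (Pi.basisFun F _) ⟨φ.G.val.det ^ 3, by simp [-map_smul, e]; ring⟩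
  obtain ⟨P, -, k⟩ := exists_cols (φ := φ) (b := fun i => g (Pi.single i 1)) h0 fun i j => by
    have := hg (Pi.single i 1) (Pi.single j 1)
    rw [toBilin'_single, toBilin'_apply'] at this
    rw [FD.f, hσ, ← this]; rfl
  exact ⟨P, _, h0, k⟩

theorem isom_cj {P : GL (Fin 5) F} {c : F} (hc : c ≠ 0) (h : P.valᵀ * φ.G * P.val.map φ.σ = c • 1)
    (h1 : ψ.σ = φ.σ) (h2 : ψ.G = 1) (g : GL (Fin 5) F) : (g ∈ φ.isom ↔ P⁻¹ * g * P ∈ ψ.isom) ∧
      (g ∈ similarityGroup φ.f ↔ P⁻¹ * g * P ∈ similarityGroup ψ.f) := by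
  have : (φ.coordFD (.refl _) P).f = (ψ.smul (.mk0 c hc)).f :=
    FD.f_eq_of_G h1.symm (Units.ext (h.trans (by simp [FD.smul_G, h2])))
  rw [← φ.coordGL_mem_isom (.refl _) P, ← φ.coordGL_mem_sim (.refl _) P, this, ← ψ.smul_isom (.mk0 c hc),
    FD.smul_sim, FD.isom, this, show coordGL (.refl _) P g = P⁻¹ * g * P from Units.ext rfl]
  exact ⟨.rfl, .rfl⟩

theorem sl_cj (P g : GL (Fin 5) F) : g ∈ specialLinear (Fin 5) F ↔ P⁻¹ * g * P ∈ specialLinear (Fin 5) F := by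
  simp [specialLinear]

theorem su_cj {P : GL (Fin 5) F} (h : P ∈ φ.isom) (g : GL (Fin 5) F) : g ∈ φ.su ↔ P⁻¹ * g * P ∈ φ.su :=
  and_congr ((mul_mem_cancel_right h).trans (mul_mem_cancel_left (inv_mem h))).symm (sl_cj P g)

theorem dec_iff {D : Fin 5 → Submodule F (Fin 5 → F)} {P : GL (Fin 5) F}
    (h : ∀ i, D i = Submodule.span F {P.val *ᵥ Pi.single i 1}) (g : GL (Fin 5) F) :
    g ∈ decompositionStabilizer D ↔ ∃ s d, P⁻¹ * g * P = mon s d := by
  constructor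
  · rintro ⟨s, hs⟩
    have : ∀ i, ∃ c : F, c • P.val *ᵥ Pi.single (s i) 1 = g.val *ᵥ P.val *ᵥ Pi.single i 1 := fun i =>
      Submodule.mem_span_singleton.1 (h _ ▸ hs i ▸ ⟨_, h i ▸ Submodule.mem_span_singleton_self _, rfl⟩)
    choose c hc using this
    refine ⟨s, fun i => .mk0 (c i) fun e => ?_, Units.ext (ext_of_mulVec_single fun i => ?_)⟩
    · simpa using gl_mulVec_eq_zero _ (gl_mulVec_eq_zero _ ((hc i).symm.trans (by simp [e])))
    · simp only [Units.val_mul, ← mulVec_mulVec, ← hc, mon_single, mulVec_smul, inv_mulVec_mulVec]; rfl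
  · rintro ⟨s, d, e⟩
    refine ⟨s, fun i => ?_⟩
    rw [h, h, Submodule.map_span, Set.image_singleton, toLin'_apply, mulVec_mulVec,
      show g.val * P.val = (P * mon s d).val by simp [← e, mul_assoc], Units.val_mul, ← mulVec_mulVec,
      mon_single, mulVec_smul, Submodule.span_singleton_smul_eq (d i).isUnit]

theorem dec_nf {D : Fin 5 → Submodule F (Fin 5 → F)} (h : IsMDecomposition 1 D) :
    ∃ P : GL (Fin 5) F, ∀ g, g ∈ decompositionStabilizer D ⊓ specialLinear _ F ↔ P⁻¹ * g * P ∈ Mon ⊤ := by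
  obtain ⟨e, P, -, k⟩ := exists_crd_mdec' h
  refine ⟨glOfEquiv ((LinearEquiv.funCongrLeft F F (Equiv.uniqueProd _ _)).trans (crd e P)), fun g => ?_⟩
  refine and_comm.trans (and_congr (sl_cj _ g) ((dec_iff (fun i => ?_) g).trans
    ⟨fun ⟨s, d, e⟩ => ⟨s, d, fun _ => trivial, e⟩, fun ⟨s, d, _, e⟩ => ⟨s, d, e⟩⟩))
  rw [k, Set.range_unique, glOfEquiv_mulVec]
  refine congrArg (fun v => Submodule.span F {crd e P v}) (funext fun ⟨a, j⟩ => ?_)
  simp [Pi.single_apply, Subsingleton.elim a default]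

theorem ndec_nf [Fintype F] {q : ℕ} (u : φ.IsU q) (hG : φ.G = 1) {D : Fin 5 → Submodule F (Fin 5 → F)}
    (h : IsNondegenerateMDecomposition φ.f 1 D) : ∃ P ∈ φ.isom,
      ∀ g, g ∈ decompositionStabilizer D ⊓ φ.su ↔ P⁻¹ * g * P ∈ Mon (nrm φ.σ) := by
  obtain ⟨b, hb, k, -⟩ := FD.exists_frame_of_ndec h
  choose t ht using fun i => u.exists_norm (c := (φ.f (b i) (b i))⁻¹) (by rw [map_inv₀, u.conj_f])
  obtain ⟨P, h1, h2⟩ := exists_cols (φ := φ) (b := fun i => t i • b i) one_ne_zero fun i j => by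
    rw [φ.f_smul_left, φ.f_smul_right, ← mul_assoc]
    by_cases e : i = j
    · simp [e, ht, hb.ne]
    · simp [e, hb.orth i j e]
  refine ⟨P, φ.mem_isom_iff_gram.2 (by simpa [hG] using h2), fun g => ?_⟩
  have := dec_iff (D := D) (P := P) (fun i => by
    rw [h1, k, Submodule.span_singleton_smul_eq (IsUnit.mk0 _ fun e => hb.ne i (by simpa [e] using (ht i).symm))]) g
  refine ⟨fun ⟨a, b, c⟩ => ?_, fun ⟨a, s, d, b, c⟩ => ⟨this.2 ⟨s, d, c⟩,
    (isom_cj one_ne_zero h2 rfl hG g).1.2 (c ▸ (mon_isom hG).2 b), (sl_cj P g).2 a⟩⟩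
  obtain ⟨s, d, e⟩ := this.1 a
  exact ⟨(sl_cj P g).1 c, s, d, (mon_isom hG).1 (e ▸ (isom_cj one_ne_zero h2 rfl hG g).1.1 b), e⟩

end CF.D5Z
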