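/-
The normaliser of `5^{1+2}` in `GL₅(F)`.
-/
import Cfsg.Agent.D5.Z1
import Cfsg.Agent.Solv.Nilpotent
import Cfsg.Agent.Classical.Linear

set_option autoImplicit false

namespace CF.D5Z

open Matrix Cfsg Cfsg.Geo CF.MaxSub Subgroup Equiv
open scoped MatrixGroups commutatorElement
open MH (nrm mem_nrm neg_mem_nrm)

theorem class2_of_char {G : Type*} [Group G] [Finite G] (h : IsPGroup 5 G) (e : ∀ x : G, x ^ 5 = 1)
    (hc : ∀ A : Subgroup G, A.Characteristic → IsMulCommutative A → IsCyclic A) (hZ : Nat.card (center G) = 5)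
    (x y : G) : ⁅x, y⁆ ∈ center G := by
  have : Fact (Nat.Prime 5) := ⟨Nat.prime_five⟩
  have := h.isNilpotent
  let Z := Subgroup.upperCentralSeries G 2
  have : IsCyclic ↥(Z ⊓ centralizer (Z : Set G)) := hc _ inferInstance
    ⟨⟨fun a b => Subtype.ext (b.2.2 _ a.2.1)⟩⟩
  have h1 : center G = Z ⊓ centralizer (Z : Set G) := eq_of_le_of_card_ge (le_inf
    (Subgroup.upperCentralSeries_one G ▸ Subgroup.upperCentralSeries_mono G one_le_two) (center_le_centralizer _)) (by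
      rw [hZ, ← IsCyclic.exponent_eq_card]
      exact Nat.le_of_dvd (by norm_num) (Monoid.exponent_dvd_of_forall_pow_eq_one fun a => Subtype.ext (e _)))
  have h2 : ⁅Z, ⊤⁆ ≤ center G := Subgroup.upperCentralSeries_one G ▸ commutator_upperCentralSeries_top_le G 1
  rw [← commutator_top_right_eq_bot_iff_le_center] at h2
  have h3 := commutator_eq_bot_iff_le_centralizer.1
    (commutator_commutator_eq_bot_of_rotate (by rwa [Subgroup.commutator_comm ⊤ Z]) h2)
  by_contra k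
  refine Solv.normal_inf_center_ne_bot (_root_.commutator (G ⧸ center G)) (fun e => k ?_)
    (eq_bot_iff.2 fun a ⟨ha, hb⟩ => ?_)
  · rw [← QuotientGroup.eq_one_iff, ← QuotientGroup.mk'_apply, map_commutatorElement, ← mem_bot, ← e]
    exact commutator_mem_commutator trivial trivial
  · rw [_root_.commutator_def, ← map_top_of_surjective _ (QuotientGroup.mk'_surjective _), ← map_commutator] at ha
    obtain ⟨a, ha, rfl⟩ := ha
    refine (QuotientGroup.eq_one_iff _).2 (h1.ge ⟨?_, h3 ha⟩)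
    exact (Subgroup.comap_upperCentralSeries_quotient_center 1).le
      ((Subgroup.upperCentralSeries_one _).ge hb)

variable {F : Type*} [Field F]

theorem mul_mon (A : Matrix (Fin 5) (Fin 5) F) (s : Perm (Fin 5)) (d : Fin 5 → Fˣ) (i j : Fin 5) :
    (A * (mon s d).val) i j = A i (s j) * d j := by simp [mul_apply, mon_apply]

theorem mon_mul_apply (A : Matrix (Fin 5) (Fin 5) F) (s : Perm (Fin 5)) (d : Fin 5 → Fˣ) (i j : Fin 5) :
    ((mon s d).val * A) (s i) j = d i * A i j := by simp [mul_apply, mon_apply]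

/-- A primitive fifth root of unity. -/
structure Om (w : Fˣ) : Prop where
  pow : w ^ 5 = 1
  ne : w ≠ 1

/-- Powers of `w`. -/
def wp (w : Fˣ) (x : ZMod 5) : Fˣ := w ^ x.val

/-- Rotations. -/
def rot (j : ZMod 5) : Perm (Fin 5) := finRotate 5 ^ j.val

/-- The elements of `5^{1+2}`. -/
def EE (w : Fˣ) (k i j : ZMod 5) : GL (Fin 5) F := mon (rot j) fun l => wp w (k + i * (l.val + j))

/-- A diagonal element of the normaliser. -/
def dd (w : Fˣ) : GL (Fin 5) F := mon 1 fun l => wp w (l.val * l.val)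

/-- The reversal. -/
def tt (F : Type*) [Field F] : GL (Fin 5) F := mon (swap 1 4 * swap 2 3) 1

/-- The action of `dd`. -/
def mD : SL(2, ZMod 5) := ⟨!![1, 2; 0, 1], by decide⟩

/-- The action of the Fourier matrix. -/
def mF : SL(2, ZMod 5) := ⟨!![0, 1; -1, 0], by decide⟩

/-- The Fourier matrix. -/
def FF (w : Fˣ) : Matrix (Fin 5) (Fin 5) F := of fun i j => wp w (i.val * j.val)

theorem rot_val (j : ZMod 5) (l : Fin 5) : ((rot j l).val : ZMod 5) = l.val + j := by revert j l; decide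

theorem tt_mul : tt F * tt F = 1 := by
  rw [tt, mon_mul, ← mon_one]
  congr 1
  · decide
  · funext i; simp

variable {w : Fˣ}

theorem wp_zero : wp w 0 = 1 := by simp [wp]

theorem wp_one : wp w 1 = w := pow_one w

theorem EE_zero : EE w 0 0 0 = 1 := by simp [EE, wp, rot, ← mon_one]; rfl

theorem EE_sc (k : ZMod 5) : EE w k 0 0 = scalarGL _ (wp w k) := Units.ext (Matrix.ext fun i j => by
  by_cases e : i = j <;> simp [EE, rot, mon_apply, e])

namespace Om

variable (h : Om w)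
include h

theorem pow' : (w : F) ^ 5 = 1 := by simpa using congrArg Units.val h.pow

theorem sub_ne : (w : F) - 1 ≠ 0 := fun e => h.ne (Units.ext (sub_eq_zero.1 e))

theorem eq : (w : F) ^ 4 + w ^ 3 + w ^ 2 + w + 1 = 0 :=
  mul_left_cancel₀ h.sub_ne (by linear_combination h.pow')

theorem five : (5 : F) ≠ 0 := fun e => pow_ne_zero 5 h.sub_ne (by
  linear_combination h.pow' + (-(w : F) ^ 4 + 2 * w ^ 3 - 2 * w ^ 2 + w) * e)

theorem orderOf_eq : orderOf w = 5 := orderOf_eq_prime (hp := ⟨Nat.prime_five⟩) h.pow h.ne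

theorem wp_add (x y : ZMod 5) : wp w (x + y) = wp w x * wp w y := by
  rw [wp, ZMod.val_add, ← pow_eq_pow_mod _ h.pow, pow_add]; rfl

theorem wp_nat (n : ℕ) : wp w n = w ^ n := by rw [wp, ZMod.val_natCast, ← pow_eq_pow_mod _ h.pow]

theorem wp_pow (x : ZMod 5) (n : ℕ) : wp w x ^ n = wp w (n * x) := by
  induction n with
  | zero => simp [wp_zero]
  | succ n e => rw [pow_succ, e, ← h.wp_add]; congr 1; push_cast; ring

theorem wp_inj : Function.Injective (wp w) := fun x y e => ZMod.val_injective 5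
  (pow_injOn_Iio_orderOf (x.val_lt.trans_eq h.orderOf_eq.symm) (y.val_lt.trans_eq h.orderOf_eq.symm) e)

theorem exists_wp {c : F} (e : c ^ 5 = 1) : ∃ k, c = wp w k := by
  obtain ⟨i, -, k⟩ := (IsPrimitiveRoot.coe_units_iff.2
    (h.orderOf_eq ▸ IsPrimitiveRoot.orderOf w)).eq_pow_of_pow_eq_one e
  exact ⟨i, by rw [h.wp_nat, ← k, Units.val_pow_eq_pow_val]⟩

theorem sum_wp (a : ZMod 5) : ∑ l : Fin 5, (wp w (l.val * a) : F) = if a = 0 then 5 else 0 := by
  split_ifs with e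
  · simp [e, wp_zero]
  have : (∑ l : Fin 5, (wp w (l.val * a) : F)) * wp w a = ∑ l : Fin 5, (wp w (l.val * a) : F) := by
    rw [Finset.sum_mul, ← sum_comp (rot 1) fun l => (wp w (l.val * a) : F)]
    simp only [rot_val, add_mul, one_mul, h.wp_add, Units.val_mul]
  exact (mul_left_eq_self₀.1 ((mul_comm ..).trans this)).resolve_left fun k => e (h.wp_inj (Units.ext (k.trans (by simp [wp_zero]))))

theorem EE_mul (k i j k' i' j' : ZMod 5) :
    EE w k i j * EE w k' i' j' = EE w (k + k' - i' * j) (i + i') (j + j') := by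
  rw [EE, EE, mon_mul, EE]
  congr 1
  · revert j j'; decide
  · refine funext fun l => (h.wp_add _ _).symm.trans (congrArg _ ?_)
    rw [rot_val]; ring

theorem EE_inv (k i j : ZMod 5) : (EE w k i j)⁻¹ = EE w (-k - i * j) (-i) (-j) :=
  inv_eq_of_mul_eq_one_right (by rw [h.EE_mul, ← EE_zero (w := w)]; congr 1 <;> ring)

theorem EE_inj {k i j k' i' j' : ZMod 5} (e : EE w k i j = EE w k' i' j') : k = k' ∧ i = i' ∧ j = j' := by
  obtain ⟨e1, e2⟩ := mon_inj e
  obtain rfl : j = j' := by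
    have := rot_val j 0
    rw [e1, rot_val] at this
    simpa using this.symm
  have a := h.wp_inj (congrFun e2 0)
  have b := h.wp_inj (congrFun e2 1)
  simp only [Fin.val_zero, Fin.val_one, Nat.cast_zero, Nat.cast_one] at a b
  exact ⟨by linear_combination (1 + j) * a - j * b, by linear_combination b - a, rfl⟩

theorem EE_pow (k i j : ZMod 5) (n : ℕ) : ∃ k', EE w k i j ^ n = EE w k' (n * i) (n * j) := by
  induction n with
  | zero => exact ⟨0, by simp [EE_zero]⟩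
  | succ n e => obtain ⟨k', e⟩ := e; exact ⟨_, by rw [pow_succ, e, h.EE_mul]; congr 1 <;> push_cast <;> ring⟩

theorem EE_eq (k i j : ZMod 5) : EE w k i j = EE w k 0 0 * EE w 0 1 0 ^ i.val * EE w 0 0 1 ^ j.val := by
  have a : ∀ n : ℕ, EE w 0 1 0 ^ n = EE w 0 n 0 ∧ EE w 0 0 1 ^ n = EE w 0 0 n := fun n => by
    induction n with
    | zero => simp [EE_zero]
    | succ n e => simp [pow_succ, e, h.EE_mul]
  simp [a, h.EE_mul]

/-- The standard extraspecial group. -/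
def R0 : Subgroup (GL (Fin 5) F) where
  carrier := {g | ∃ k i j, g = EE w k i j}
  mul_mem' := by rintro _ _ ⟨k, i, j, rfl⟩ ⟨k', i', j', rfl⟩; exact ⟨_, _, _, h.EE_mul ..⟩
  one_mem' := ⟨0, 0, 0, EE_zero.symm⟩
  inv_mem' := by rintro _ ⟨k, i, j, rfl⟩; exact ⟨_, _, _, h.EE_inv ..⟩

theorem mem (k i j : ZMod 5) : EE w k i j ∈ h.R0 := ⟨k, i, j, rfl⟩

theorem card_R0 : Nat.card h.R0 = 125 :=
  (Nat.card_eq_of_bijective (fun x : ZMod 5 × ZMod 5 × ZMod 5 => (⟨_, h.mem x.1 x.2.1 x.2.2⟩ : h.R0))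
    ⟨fun _ _ e => let ⟨a, b, c⟩ := h.EE_inj (congrArg Subtype.val e); Prod.ext a (Prod.ext b c),
      fun ⟨_, k, i, j, e⟩ => ⟨(k, i, j), Subtype.ext e.symm⟩⟩).symm.trans (by simp)

theorem R0_le {μ : Subgroup Fˣ} (hw : w ∈ μ) : h.R0 ≤ Mon μ := by
  rintro _ ⟨k, i, j, rfl⟩
  refine mon_mem (fun _ => pow_mem hw _) ?_
  rw [Fin.prod_univ_five, ← h.wp_add, ← h.wp_add, ← h.wp_add, ← h.wp_add, sg_one (by revert j; decide),
    one_mul, show _ + _ = (0 : ZMod 5) by revert k i j; decide, wp_zero]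

theorem dd_mem {μ : Subgroup Fˣ} (hw : w ∈ μ) : dd w ∈ Mon μ := by
  refine mon_mem (fun _ => pow_mem hw _) ?_
  rw [Fin.prod_univ_five, ← h.wp_add, ← h.wp_add, ← h.wp_add, ← h.wp_add, map_one,
    one_mul, show _ + _ = (0 : ZMod 5) by decide, wp_zero]

theorem le_of {M : Subgroup (GL (Fin 5) F)} (a : EE w 0 1 0 ∈ M) (b : EE w 0 0 1 ∈ M) : h.R0 ≤ M := by
  rintro _ ⟨k, i, j, rfl⟩
  have z : EE w 0 1 0 * EE w 0 0 1 * (EE w 0 1 0)⁻¹ * (EE w 0 0 1)⁻¹ = EE w 1 0 0 := by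
    simp [h.EE_inv, h.EE_mul]
  rw [h.EE_eq]
  refine mul_mem (mul_mem ?_ (pow_mem a _)) (pow_mem b _)
  convert pow_mem (z ▸ mul_mem (mul_mem (mul_mem a b) (inv_mem a)) (inv_mem b)) k.val
  rw [EE_sc, EE_sc, ← scalarGL_pow, wp_one, wp]

theorem span_R0 : spanAlg h.R0 = ⊤ := by
  refine span_top (single_mem fun i j e => ⟨_, coe_mon_one (F := F) ▸ coe_mem_spanAlg (h.mem 0 1 0), fun k =>
    e ?_⟩) fun i j => ⟨_, _, ?_, coe_mem_spanAlg (h.mem 0 0 (i.val - j.val))⟩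
  · have := h.wp_inj (Units.ext k)
    clear e k
    revert i j; decide
  · revert i j; decide

/-- The normaliser. -/
abbrev N0 := subgroupNormalizer h.R0

theorem mem_N0 [Finite F] {g : GL (Fin 5) F} (a : g * EE w 0 1 0 * g⁻¹ ∈ h.R0) (b : g * EE w 0 0 1 * g⁻¹ ∈ h.R0) :
    g ∈ h.N0 := mem_normalizer_fintype fun _ hx =>
  h.le_of (M := h.R0.comap (MulAut.conj g).toMonoidHom) a b hx

/-- The action on `R / Z(R)`. -/
def _root_.CF.D5Z.Act (w : Fˣ) (g : GL (Fin 5) F) (m : SL(2, ZMod 5)) : Prop := ∀ k i j, ∃ k',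
  g * EE w k i j * g⁻¹ = EE w k' (m 0 0 * i + m 0 1 * j) (m 1 0 * i + m 1 1 * j)

theorem act {g : GL (Fin 5) F} {m : SL(2, ZMod 5)} {k l : ZMod 5}
    (a : g * EE w 0 1 0 * g⁻¹ = EE w k (m 0 0) (m 1 0)) (b : g * EE w 0 0 1 * g⁻¹ = EE w l (m 0 1) (m 1 1)) :
    Act w g m := fun k' i j => by
  obtain ⟨k1, e1⟩ := h.EE_pow k (m 0 0) (m 1 0) i.val
  obtain ⟨k2, e2⟩ := h.EE_pow l (m 0 1) (m 1 1) j.val
  refine ⟨k' + k1 + k2 - j * m 0 1 * (i * m 1 0), ?_⟩
  rw [h.EE_eq, ← conj_mul, ← conj_mul, ← conj_pow, ← conj_pow, a, b, e1, e2, EE_sc,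
    ← scalars_comm (scalarGL_mem _), mul_inv_cancel_right, ← EE_sc, h.EE_mul, h.EE_mul]
  simp [mul_comm]

theorem exists_act {g : GL (Fin 5) F} (hg : g ∈ h.N0) : ∃ m, Act w g m := by
  obtain ⟨k, p, r, a⟩ := (hg _).1 (h.mem 0 1 0)
  obtain ⟨l, q, s, b⟩ := (hg _).1 (h.mem 0 0 1)
  have : g * (EE w 0 1 0 * EE w 0 0 1) * g⁻¹ = g * (EE w 1 0 0 * (EE w 0 0 1 * EE w 0 1 0)) * g⁻¹ := by
    simp [h.EE_mul]
  rw [← conj_mul, ← conj_mul, ← conj_mul, a, b, EE_sc, ← scalars_comm (scalarGL_mem _), mul_inv_cancel_right,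
    ← EE_sc, h.EE_mul, h.EE_mul, h.EE_mul] at this
  exact ⟨⟨!![p, q; r, s], by rw [det_fin_two_of]; linear_combination (h.EE_inj this).1⟩, h.act a b⟩

theorem act_unique {g : GL (Fin 5) F} {m m' : SL(2, ZMod 5)} (a : Act w g m) (b : Act w g m') : m = m' := by
  obtain ⟨_, a1⟩ := a 0 1 0
  obtain ⟨_, a2⟩ := a 0 0 1
  obtain ⟨_, b1⟩ := b 0 1 0
  obtain ⟨_, b2⟩ := b 0 0 1
  have c := (h.EE_inj (a1.symm.trans b1)).2
  have d := (h.EE_inj (a2.symm.trans b2)).2
  ext i j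
  fin_cases i <;> fin_cases j <;> simp_all

theorem card_dvd [Finite F] {M : Subgroup (GL (Fin 5) F)} (a : M ≤ h.N0) (b : M ≤ specialLinear _ F) :
    Nat.card M ∣ 15000 := by
  choose ρ hρ using fun g : M => h.exists_act (a g.2)
  let f : M →* SL(2, ZMod 5) := .mk' ρ fun a b => h.act_unique (hρ _) fun k i j => by
    obtain ⟨k1, e1⟩ := hρ b k i j
    obtain ⟨k2, e2⟩ := hρ a k1 (ρ b 0 0 * i + ρ b 0 1 * j) (ρ b 1 0 * i + ρ b 1 1 * j)
    refine ⟨k2, .trans (by simp [← e1, mul_assoc]) (e2.trans ?_)⟩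
    congr 1 <;> simp [mul_apply, Fin.sum_univ_two] <;> ring
  rw [← f.ker.card_mul_index, index_ker]
  rw [← card_map_of_injective (K := f.ker) M.subtype_injective]
  refine mul_dvd_mul ((card_dvd_of_le ?_).trans h.card_R0.dvd)
    (f.range.card_subgroup_dvd_card.trans (by
      have : Fact (Nat.Prime 5) := ⟨Nat.prime_five⟩
      rw [Classical.card_SL_two]; simp : _ ∣ 120))
  rintro _ ⟨g, e, rfl⟩
  have := hρ g
  rw [show ρ g = 1 from e] at this
  obtain ⟨k, a1⟩ := this 0 1 0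
  obtain ⟨l, a2⟩ := this 0 0 1
  obtain ⟨c, hc⟩ := mem_scalars_of_comm h.span_R0 (x := (EE w 0 l (-k))⁻¹ * g) fun y hy =>
    (h.le_of (M := centralizer {_}) (mem_centralizer_singleton_iff.2 (.symm (by
      rw [mul_assoc, mul_inv_eq_iff_eq_mul.1 a1, ← mul_assoc, ← mul_assoc]; simp [h.EE_inv, h.EE_mul, add_comm])))
      (mem_centralizer_singleton_iff.2 (.symm (by
        rw [mul_assoc, mul_inv_eq_iff_eq_mul.1 a2, ← mul_assoc, ← mul_assoc]; simp [h.EE_inv, h.EE_mul, add_comm])))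
      hy _ rfl)
  have := mem_specialLinear.1 (mul_mem (inv_mem (h.R0_le (μ := ⊤) trivial (h.mem 0 l (-k))).1) (b g.2))
  obtain ⟨n, hn⟩ := h.exists_wp (c := c) (by simpa [← hc] using this)
  change g.1 ∈ h.R0
  rw [← mul_inv_cancel_left (EE w 0 l (-k)) g.1, ← hc]
  exact mul_mem (h.mem ..) ⟨n, 0, 0, by rw [EE_sc, ← Units.ext hn]; rfl⟩

theorem act_dd : Act w (dd w) mD := by
  refine h.act (k := 0) (l := 4) ?_ ?_ <;> rw [mul_inv_eq_iff_eq_mul] <;> simp only [EE, dd, mon_mul] <;>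
    congr 1 <;> funext i <;> rw [← h.wp_add, ← h.wp_add] <;> congr 1 <;> revert i <;> decide

theorem FF_mul : FF w * FF w = (5 : F) • (tt F).val := by
  ext i j
  have : (i.val + j.val : ZMod 5) = 0 ↔ i = (swap 1 4 * swap 2 3 : Perm (Fin 5)) j := by revert i j; decide
  rw [Matrix.smul_apply, tt, mon_apply, ← if_congr this rfl rfl, smul_ite, Pi.one_apply, Units.val_one, smul_eq_mul,
    mul_one, smul_zero, ← h.sum_wp, mul_apply]
  simp only [FF, of_apply, mul_add, h.wp_add, Units.val_mul, mul_comm (i.val : ZMod 5)]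

theorem exists_ff : ∃ g ∈ specialLinear (Fin 5) F, Act w g mF ∧ g * g = tt F ∧
    ∀ φ : FD (Fin 5) F, φ.G = 1 → w ∈ nrm φ.σ → g ∈ φ.isom := by
  obtain ⟨c, c1, c2, c3⟩ : ∃ c : F, c * c * 5 = 1 ∧ (c • FF w).det = 1 ∧
      ∀ σ : F →+* F, w ∈ nrm σ → σ c = c := by
    obtain ⟨θ, t1, t2⟩ : ∃ θ : F, θ * θ = 5 ∧ ∀ σ : F →+* F, w ∈ nrm σ → σ θ = θ := by
      refine ⟨w - w ^ 2 - w ^ 3 + w ^ 4, by
        linear_combination ((w : F) ^ 4 - 3 * w ^ 3 + w ^ 2 + 5 * w - 5) * h.eq, fun σ hw => ?_⟩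
      have e : σ w = w ^ 4 := mul_left_cancel₀ w.ne_zero (by rw [mem_nrm.1 hw]; linear_combination -h.pow')
      simp only [map_add, map_sub, map_pow, e]
      linear_combination ((w : F) ^ 11 + w ^ 6 + w - w ^ 7 - w ^ 2 - w ^ 3) * h.pow'
    have a : θ⁻¹ * θ⁻¹ * 5 = 1 := by rw [← mul_inv, t1, inv_mul_cancel₀ h.five]
    have : (θ⁻¹ • FF w).det * (θ⁻¹ • FF w).det = 1 := by
      rw [← det_mul, smul_mul_smul_comm, h.FF_mul, smul_smul, a, one_smul]
      exact mem_specialLinear.1 (perm_mem (μ := ⊤) (by decide)).1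
    rcases mul_self_eq_one_iff.1 this with e | e
    · exact ⟨_, a, e, fun σ hw => by rw [map_inv₀, t2 σ hw]⟩
    · exact ⟨-θ⁻¹, by simpa using a, by rw [neg_smul, det_neg, e]; simp; norm_num, fun σ hw => by
        rw [map_neg, map_inv₀, t2 σ hw]⟩
  have e : c • FF w * c • FF w = (tt F).val := by rw [smul_mul_smul_comm, h.FF_mul, smul_smul, c1, one_smul]
  let g : GL (Fin 5) F := .mkOfDetNeZero (c • FF w) (c2 ▸ one_ne_zero)
  have hg : g.val = c • FF w := rfl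
  refine ⟨g, mem_specialLinear.2 c2, h.act (k := 0) (l := 0) ?_ ?_, Units.ext e, fun φ hG hw => ?_⟩
  · refine mul_inv_eq_iff_eq_mul.2 (Units.ext (Matrix.ext fun i j => ?_))
    obtain ⟨i, rfl⟩ := (rot (mF 1 0)).surjective i
    simp only [Units.val_mul, hg, EE, mul_mon, mon_mul_apply, Matrix.smul_apply, FF, of_apply, smul_eq_mul]
    rw [mul_assoc, mul_left_comm _ c, ← Units.val_mul, ← Units.val_mul, ← h.wp_add, ← h.wp_add]
    congr 3
    revert i j; decide
  · refine mul_inv_eq_iff_eq_mul.2 (Units.ext (Matrix.ext fun i j => ?_))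
    obtain ⟨i, rfl⟩ := (rot (mF 1 1)).surjective i
    simp only [Units.val_mul, hg, EE, mul_mon, mon_mul_apply, Matrix.smul_apply, FF, of_apply, smul_eq_mul]
    rw [mul_assoc, mul_left_comm _ c, ← Units.val_mul, ← Units.val_mul, ← h.wp_add, ← h.wp_add]
    congr 3
    revert i j; decide
  · have k : ∀ x, φ.σ (wp w x) = wp w (-x) := fun x => mul_left_cancel₀ (wp w x).ne_zero (by
      rw [(mem_nrm (c := wp w x)).1 (pow_mem hw _), ← Units.val_mul, ← h.wp_add]; simp [wp_zero])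
    rw [φ.mem_isom_iff_gram, hG, hg, Units.val_one, mul_one, transpose_smul, map_smul_eq, smul_mul_smul_comm,
      c3 _ hw]
    ext i j
    have : (i.val - j.val : ZMod 5) = 0 ↔ i = j := by revert i j; decide
    rw [one_apply, ← if_congr this rfl rfl, ← c1, ← mul_zero (c * c), ← mul_ite, ← h.sum_wp, Matrix.smul_apply, mul_apply]
    simp only [FF, of_apply, transpose_apply, map_apply, k, mul_sub, sub_eq_add_neg, mul_add, h.wp_add,
      Units.val_mul, mul_neg, smul_eq_mul]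

theorem sc_O5 {M : Subgroup (GL (Fin 5) F)} (a : h.R0 ≤ M) : scalarGL _ w ∈ O5 F M := by
  convert O5.comm (F := F) (a (h.mem 0 0 1)) (a (h.mem 0 1 0))
  simp [h.EE_inv, h.EE_mul, EE_sc, wp_one]

theorem not_hom {M : Subgroup (GL (Fin 5) F)} (a : h.R0 ≤ M) (b : dd w ∈ M) {g : GL (Fin 5) F} (c : g ∈ M)
    (d : Act w g mF) (ρ : M →* Perm (Fin 5)) (e : ∀ x y, ρ x = 1 → ρ y = 1 → x * y = y * x) : False := by
  let f := ρ.comp (inclusion a)
  have k : ∀ x : f.ker, ∃ k, x.1.1 = EE w k 0 0 := by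
    rintro ⟨⟨_, k, i, j, rfl⟩, x⟩
    have n : ∀ g (hg : g ∈ M) m, Act w g m → (m 0 0 * i + m 0 1 * j) * j = i * (m 1 0 * i + m 1 1 * j) :=
      fun g hg m d => by
        obtain ⟨l, d⟩ := d k i j
        have := congrArg Subtype.val (e _ (⟨g, hg⟩ * inclusion a ⟨_, k, i, j, rfl⟩ * ⟨g, hg⟩⁻¹) x (by
          rw [map_mul, map_mul, show ρ (inclusion a _) = 1 from x, map_inv, mul_one, mul_inv_cancel]))
        simp only [coe_mul, coe_inclusion, coe_inv, d, h.EE_mul] at this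
        linear_combination -(h.EE_inj this).1
    have n1 := n _ b _ h.act_dd
    have n2 := n _ c _ d
    obtain ⟨rfl, rfl⟩ : i = 0 ∧ j = 0 := by clear n x; revert i j; decide
    exact ⟨k, rfl⟩
  choose k hk using k
  have := Nat.finite_of_card_ne_zero (h.card_R0.trans_ne (by simp))
  have h1 := Nat.card_le_card_of_injective k fun x y e => Subtype.ext (Subtype.ext (by rw [hk, hk, e]))
  have h2 := f.ker.card_mul_index
  have h3 := Nat.le_of_dvd (by simp) (Nat.dvd_gcd (Dvd.intro_left _ h2) (index_ker f ▸ f.range.card_subgroup_dvd_card))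
  rw [h.card_R0] at h2 h3
  rw [Nat.card_zmod] at h1
  simp [Fintype.card_perm, Nat.factorial] at h3
  nlinarith

theorem exists_vec {R : Subgroup (GL (Fin 5) F)} (c : ProjComm R) (s : spanAlg R = ⊤) (e : ∀ x ∈ R, x ^ 5 = 1) :
    ∃ x ∈ R, ∃ y ∈ R, ∃ u : Fin 5 → F, u ≠ 0 ∧
      ∀ i : ℕ, x.val *ᵥ (y ^ i).val *ᵥ u = (w : F) ^ i • (y ^ i).val *ᵥ u := by
  obtain ⟨x, hx, y, hy, n⟩ := not_comm_of_span (by simp) s
  obtain ⟨a, ha⟩ := (mem_scalars_iff' _).1 (c x hx y hy)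
  obtain ⟨k, rfl⟩ := h.exists_wp (c := a) (by
    have := congrArg Units.val (e _ (mul_mem (mul_mem (mul_mem hx hy) (inv_mem hx)) (inv_mem hy)))
    rw [Units.val_pow_eq_pow_val, ha, _root_.smul_pow, one_pow] at this
    simpa using congrFun₂ this 0 0)
  replace ha : x.val * y.val = (wp w k : F) • (y.val * x.val) := by
    rw [← one_mul (y.val * x.val), ← smul_mul_assoc, ← ha]; simp [mul_assoc]
  have k0 : k ≠ 0 := fun e => n (Units.ext (by simpa [e, wp_zero] using ha))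
  have p : ∀ {x y : Matrix (Fin 5) (Fin 5) F} {a : F}, x * y = a • (y * x) → ∀ i : ℕ,
      x * y ^ i = a ^ i • (y ^ i * x) := fun {x y a} e i => by
    induction i with
    | zero => simp
    | succ i k => rw [pow_succ, ← mul_assoc, k, smul_mul_assoc, mul_assoc, e, mul_smul_comm, smul_smul, pow_succ,
        mul_assoc]
  replace ha := p ha (k ^ 3).val
  rw [← Units.val_pow_eq_pow_val, ← Units.val_pow_eq_pow_val, h.wp_pow, ZMod.natCast_zmod_val,
    show k ^ 3 * k = 1 by clear * - k0; revert k; decide, wp_one] at ha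
  generalize hz : y ^ (k ^ 3).val = z at ha
  have t : ∀ i : Fin 5, (x.val ^ i.val).trace = if i = 0 then 5 else 0 := fun i => by
    split_ifs with e
    · simp [e]
    have := p (a := (w : F)⁻¹) (x := z.val) (y := x.val) (by rw [ha, smul_smul]; simp) i
    have := congrArg (fun m => (m * z⁻¹.val).trace) this
    simp only [smul_mul_assoc, trace_smul, Units.mul_inv_cancel_right, trace_units_conj, smul_eq_mul] at this
    refine (mul_left_eq_self₀.1 this.symm).resolve_left fun k => e (Fin.ext ?_)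
    rw [inv_pow, inv_eq_one, ← Units.val_pow_eq_pow_val, Units.val_eq_one, ← orderOf_dvd_iff_pow_eq_one,
      h.orderOf_eq] at k
    exact Nat.eq_zero_of_dvd_of_lt k i.2
  obtain ⟨v, hv⟩ : ∃ v, (∑ i : Fin 5, x.val ^ i.val) *ᵥ v ≠ 0 := by
    by_contra! k
    have := congrArg trace (ext_of_mulVec_single fun i => (k (Pi.single i 1)).trans (zero_mulVec _).symm)
    simp [trace_sum, t, h.five] at this
  refine ⟨x, hx, z, hz ▸ pow_mem hy _, _, hv, fun i => ?_⟩
  have : x.val * ∑ i : Fin 5, x.val ^ i.val = ∑ i : Fin 5, x.val ^ i.val := by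
    have := congrArg Units.val (e x hx)
    simp only [Fin.sum_univ_five, mul_add, ← pow_succ']
    simp at this ⊢
    rw [this]; abel
  rw [mulVec_mulVec, Units.val_pow_eq_pow_val, p ha, smul_mulVec, ← mulVec_mulVec, mulVec_mulVec v x.val, this]

theorem exists_P {x y : GL (Fin 5) F} {u : Fin 5 → F} (u0 : u ≠ 0)
    (k : ∀ i : ℕ, x.val *ᵥ (y ^ i).val *ᵥ u = (w : F) ^ i • (y ^ i).val *ᵥ u) :
    ∃ P : GL (Fin 5) F, ∀ i : Fin 5, P.val *ᵥ Pi.single i 1 = (y ^ i.val).val *ᵥ u := by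
  have := Module.End.eigenvectors_linearIndependent' (toLin' x.val) (fun i : Fin 5 => (w : F) ^ i.val)
    (fun i j e => Fin.ext (pow_injOn_Iio_orderOf (i.2.trans_eq h.orderOf_eq.symm) (j.2.trans_eq h.orderOf_eq.symm)
      (Units.ext (by simpa using e)))) (fun i => (y ^ i.val).val *ᵥ u) fun i =>
      ⟨Module.End.mem_eigenspace_iff.2 (k i), mt (gl_mulVec_eq_zero _) u0⟩
  obtain ⟨P, hP⟩ := (linearIndependent_rows_iff_isUnit (A := of _)).1 this
  exact ⟨trGL P, fun i => by rw [coe_trGL, hP, mulVec_single_one]; rfl⟩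

theorem nf [Finite F] {R : Subgroup (GL (Fin 5) F)} (c : Nat.card R = 125) {x y P : GL (Fin 5) F}
    (hx : x ∈ R) (hy : y ∈ R) (e : y ^ 5 = 1) {u : Fin 5 → F}
    (k : ∀ i : ℕ, x.val *ᵥ (y ^ i).val *ᵥ u = (w : F) ^ i • (y ^ i).val *ᵥ u)
    (hP : ∀ i : Fin 5, P.val *ᵥ Pi.single i 1 = (y ^ i.val).val *ᵥ u) : R = cjS P h.R0 := by
  refine (eq_of_le_of_card_ge (map_le_iff_le_comap.2 (h.le_of ?_ ?_))
    (c.trans (h.card_R0.symm.trans (MH.card_cj P fun _ => mem_cjS).symm)).le).symm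
  · suffices x = P * EE w 0 1 0 * P⁻¹ from show P * EE w 0 1 0 * P⁻¹ ∈ R from this ▸ hx
    refine eq_mul_inv_iff_mul_eq.2 (Units.ext (ext_of_mulVec_single fun i => ?_))
    simp only [Units.val_mul, ← mulVec_mulVec, EE, mon_single, mulVec_smul, hP, k]
    simp [rot, h.wp_nat]
  · suffices y = P * EE w 0 0 1 * P⁻¹ from show P * EE w 0 0 1 * P⁻¹ ∈ R from this ▸ hy
    refine eq_mul_inv_iff_mul_eq.2 (Units.ext (ext_of_mulVec_single fun i => ?_))
    simp only [Units.val_mul, ← mulVec_mulVec, EE, mon_single, mulVec_smul, hP, k]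
    rw [mulVec_mulVec, ← Units.val_mul, ← pow_succ', pow_eq_pow_mod _ e,
      show (i.val + 1) % 5 = (rot 1 i).val by revert i; decide]
    simp [wp_zero]

end Om

/-- An irreducible extraspecial group. -/
structure Ext (R : Subgroup (GL (Fin 5) F)) : Prop where
  card : Nat.card R = 125
  comm : ProjComm R
  span : spanAlg R = ⊤
  pow : ∀ x ∈ R, x ^ 5 = 1

theorem Act.mem [Finite F] (h : Om w) {g : GL (Fin 5) F} {m : SL(2, ZMod 5)} (a : Act w g m) : g ∈ h.N0 :=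
  h.mem_N0 (let ⟨_, e⟩ := a 0 1 0; ⟨_, _, _, e⟩) (let ⟨_, e⟩ := a 0 0 1; ⟨_, _, _, e⟩)

theorem Om.nf_l [Finite F] (h : Om w) {R : Subgroup (GL (Fin 5) F)} (c : Ext R) : ∃ P, R = cjS P h.R0 := by
  obtain ⟨x, hx, y, hy, u, u0, k⟩ := h.exists_vec c.comm c.span c.pow
  obtain ⟨P, hP⟩ := h.exists_P u0 k
  exact ⟨P, h.nf c.card hx hy (c.pow y hy) k hP⟩

theorem Om.nf_u [Fintype F] (h : Om w) {φ : FD (Fin 5) F} {q : ℕ} (u : φ.IsU q) (hG : φ.G = 1) (hw : w ∈ nrm φ.σ)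
    {R : Subgroup (GL (Fin 5) F)} (hR : R ≤ φ.isom) (c : Ext R) : ∃ P ∈ φ.isom, R = cjS P h.R0 := by
  obtain ⟨x, hx, y, hy, v, v0, k⟩ := h.exists_vec c.comm c.span c.pow
  have o : ∀ i j : Fin 5, φ.f ((y ^ i.val).val *ᵥ v) ((y ^ j.val).val *ᵥ v) = (φ.f v v • 1 : Matrix _ _ F) i j := by
    intro i j
    by_cases e : i = j
    · simp [e, -Units.val_pow_eq_pow_val, φ.mem_isom.1 (hR (pow_mem hy j))]
    have := φ.mem_isom.1 (hR hx) ((y ^ i.val).val *ᵥ v) ((y ^ j.val).val *ᵥ v)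
    rw [k, k, φ.f_smul_left, φ.f_smul_right, ← mul_assoc, mul_left_eq_self₀] at this
    refine (this.resolve_left fun e' => e (Fin.ext (pow_injOn_Iio_orderOf (i.2.trans_eq h.orderOf_eq.symm)
      (j.2.trans_eq h.orderOf_eq.symm) (Units.ext ?_)))).trans (by simp [e])
    simpa [← mul_assoc, mul_right_comm _ _ ((w : F) ^ j.val), mul_assoc ((w : F) ^ i.val), ← mul_pow, mem_nrm.1 hw,
      mul_comm (φ.σ w)] using congrArg (· * (w : F) ^ j.val) e'
  have v1 : φ.f v v ≠ 0 := fun e => v0 (φ.eq_zero_of_left fun z => by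
    obtain ⟨P, hP⟩ := h.exists_P v0 k
    rw [← mulVec_inv_mulVec P z, pi_eq_sum_univ' (_ *ᵥ z), mulVec_sum, φ.f_sum_left]
    refine Finset.sum_eq_zero fun i _ => ?_
    rw [mulVec_smul, hP, φ.f_smul_left, show φ.f _ v = 0 by simpa [e] using o i 0, mul_zero])
  obtain ⟨t, ht⟩ := u.exists_norm (c := (φ.f v v)⁻¹) (by rw [map_inv₀, u.conj_f])
  obtain ⟨P, h1, h2⟩ := exists_cols (φ := φ) (b := fun i => (y ^ i.val).val *ᵥ (t • v)) one_ne_zero fun i j => by
    rw [mulVec_smul, mulVec_smul, φ.f_smul_left, φ.f_smul_right, o, ← mul_assoc, ht]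
    simp [← mul_assoc, v1]
  exact ⟨P, φ.mem_isom_iff_gram.2 (by simpa [hG] using h2), h.nf c.card hx hy (c.pow y hy)
    (fun i => by simp only [mulVec_smul, k, smul_comm t]) h1⟩

end CF.D5Z
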